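import Mathlib

/-!
# A dihedral group acting on a 2-group

Let `R` be a normal 2-subgroup of `G`, `f` an element of odd prime order `p` acting
fixed-point-freely on `R`, `t` an involution inverting `f` such that `(t r)^4 = 1` for all `r ∈ R`.
Then `R` is elementary abelian.
-/

set_option autoImplicit false

open scoped commutatorElement

namespace Cfsg.Agent.H497.DihedralTwo

open Subgroup

section surj
variable {G : Type*} [Group G]

/-- `u ↦ u⁻¹ u^g` is surjective on a finite `g`-invariant subgroup on which `g` has no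
nontrivial fixed points. -/
theorem surj (M : Subgroup G) [Finite M] {g : G} (hg : ∀ m ∈ M, g * m * g⁻¹ ∈ M)
    (hfpf : ∀ m ∈ M, g * m = m * g → m = 1) {x : G} (hx : x ∈ M) :
    ∃ u ∈ M, x = u⁻¹ * (g * u * g⁻¹) := by
  let φ : M → M := fun u => ⟨(u : G)⁻¹ * (g * u * g⁻¹), M.mul_mem (M.inv_mem u.2) (hg u u.2)⟩
  have hinj : Function.Injective φ := by
    intro a b hab
    have h1 : (a : G)⁻¹ * (g * a * g⁻¹) = (b : G)⁻¹ * (g * b * g⁻¹) := congrArg Subtype.val hab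
    have h2 : g * ((b : G) * (a : G)⁻¹) = ((b : G) * (a : G)⁻¹) * g := by
      have h3 : (b : G) * (a : G)⁻¹ * (g * a * g⁻¹) = g * b * g⁻¹ := by
        rw [mul_assoc, h1]; group
      calc g * ((b : G) * (a : G)⁻¹) = (g * b * g⁻¹) * (g * (a : G)⁻¹) := by group
        _ = ((b : G) * (a : G)⁻¹ * (g * a * g⁻¹)) * (g * (a : G)⁻¹) := by rw [h3]
        _ = ((b : G) * (a : G)⁻¹) * g := by group
    have h4 := hfpf _ (M.mul_mem b.2 (M.inv_mem a.2)) h2
    exact Subtype.ext (mul_inv_eq_one.mp h4).symm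
  obtain ⟨u, hu⟩ := (Finite.injective_iff_surjective.1 hinj) ⟨x, hx⟩
  exact ⟨u, u.2, (congrArg Subtype.val hu).symm⟩

end surj

/-- The hypotheses. -/
structure Hyp {G : Type*} [Group G] (R : Subgroup G) (f t : G) (p : ℕ) : Prop where
  normal : R.Normal
  fin : Finite R
  two : IsPGroup 2 R
  prime : p.Prime
  ne2 : p ≠ 2
  fp : f ^ p = 1
  tf : t * f * t⁻¹ = f⁻¹
  fpf : ∀ r ∈ R, f * r = r * f → r = 1
  four : ∀ r ∈ R, (t * r * t⁻¹ * r) * (t * r * t⁻¹ * r) = 1
  tt : ∀ r ∈ R, t * (t * r * t⁻¹) * t⁻¹ = r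

namespace Hyp

variable {G : Type*} [Group G] {R : Subgroup G} {f t : G} {p : ℕ}

theorem of (hn : R.Normal) (hfin : Finite R) (h2 : IsPGroup 2 R) (hp : p.Prime) (hp2 : p ≠ 2)
    (hfp : f ^ p = 1) (htt : t * t = 1) (htf : t * f * t⁻¹ = f⁻¹)
    (hfpf : ∀ r ∈ R, f * r = r * f → r = 1) (hfour : ∀ r ∈ R, (t * r) ^ 4 = 1) : Hyp R f t p where
  normal := hn
  fin := hfin
  two := h2
  prime := hp
  ne2 := hp2
  fp := hfp
  tf := htf
  fpf := hfpf
  four := by
    intro r hr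
    have h := hfour r hr
    have ht : t⁻¹ = t := inv_eq_of_mul_eq_one_left htt
    rw [ht]
    simp only [pow_succ, pow_zero, one_mul] at h
    rw [← h]; group
  tt := by
    intro r _
    have ht : t⁻¹ = t := inv_eq_of_mul_eq_one_left htt
    rw [ht]
    calc t * (t * r * t) * t = (t * t) * r * (t * t) := by group
      _ = r := by rw [htt]; group

theorem conj_mem (h : Hyp R f t p) {r : G} (hr : r ∈ R) (g : G) : g * r * g⁻¹ ∈ R :=
  h.normal.conj_mem r hr g

/-- `f` is a power of `f ^ n` if `p ∤ n`. -/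
theorem commute_of_pow (h : Hyp R f t p) {n : ℕ} (hn : ¬ p ∣ n) {w : G}
    (hw : Commute (f ^ n) w) : Commute f w := by
  have h1 : orderOf f ∣ p := orderOf_dvd_of_pow_eq_one h.fp
  have h2 : n.Coprime (orderOf f) := by
    have h3 : n.Coprime p := ((Nat.Prime.coprime_iff_not_dvd h.prime).mpr hn).symm
    exact Nat.Coprime.coprime_dvd_right h1 h3
  obtain ⟨m, hm⟩ := exists_pow_eq_self_of_coprime h2
  rw [← hm]
  exact hw.pow_left m

/-- the quotient -/
theorem quot (h : Hyp R f t p) (M : Subgroup G) [M.Normal] (hM : M ≤ R) :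
    Hyp (R.map (QuotientGroup.mk' M)) (QuotientGroup.mk' M f) (QuotientGroup.mk' M t) p where
  normal := h.normal.map _ (QuotientGroup.mk'_surjective M)
  fin := by
    have := h.fin
    exact Finite.of_surjective (fun r : R => (⟨QuotientGroup.mk' M r, mem_map_of_mem _ r.2⟩ :
      R.map (QuotientGroup.mk' M))) (by
        rintro ⟨_, r, hr, rfl⟩
        exact ⟨⟨r, hr⟩, rfl⟩)
  two := h.two.map _
  prime := h.prime
  ne2 := h.ne2
  fp := by rw [← map_pow, h.fp, map_one]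
  tf := by rw [← map_mul, ← map_inv, ← map_mul, h.tf, map_inv]
  fpf := by
    rintro _ ⟨r, hr, rfl⟩ hc
    have := h.fin
    have hMf : Finite M := Finite.of_injective (Subgroup.inclusion hM) (Subgroup.inclusion_injective hM)
    have h1 : r⁻¹ * (f * r * f⁻¹) ∈ M := by
      rw [← QuotientGroup.eq_one_iff]
      have e : QuotientGroup.mk' M (r⁻¹ * (f * r * f⁻¹)) = 1 := by
        rw [map_mul, map_inv, map_mul, map_mul, map_inv, hc]; group
      exact e
    obtain ⟨m, hm, hrm⟩ := surj M (g := f)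
      (fun m hm => (inferInstance : M.Normal).conj_mem m hm f)
      (fun m hm => h.fpf m (hM hm)) h1
    have h2 : f * (r * m⁻¹) = (r * m⁻¹) * f := by
      have h3 : f * r * f⁻¹ = r * (m⁻¹ * (f * m * f⁻¹)) := by rw [← hrm]; group
      calc f * (r * m⁻¹) = (f * r * f⁻¹) * (f * m⁻¹) := by group
        _ = r * (m⁻¹ * (f * m * f⁻¹)) * (f * m⁻¹) := by rw [h3]
        _ = (r * m⁻¹) * f := by group
    have h3 := h.fpf _ (R.mul_mem hr (R.inv_mem (hM hm))) h2
    have h4 : r = m := mul_inv_eq_one.mp h3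
    rw [QuotientGroup.mk'_apply, QuotientGroup.eq_one_iff, h4]
    exact hm
  four := by
    rintro _ ⟨r, hr, rfl⟩
    rw [← map_inv, ← map_mul, ← map_mul, ← map_mul, ← map_mul, h.four r hr, map_one]
  tt := by
    rintro _ ⟨r, hr, rfl⟩
    rw [← map_inv, ← map_mul, ← map_mul, ← map_mul, ← map_mul, h.tt r hr]

/-- The abelian case. -/
theorem sq_eq_one_of_comm (h : Hyp R f t p) (hc : ∀ a ∈ R, ∀ b ∈ R, a * b = b * a) :
    ∀ r ∈ R, r * r = 1 := by
  have key : ∀ r ∈ R, t * (r * r) * t⁻¹ = (r * r)⁻¹ := by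
    intro r hr
    have h1 := h.four r hr
    set s := t * r * t⁻¹ with hs
    have hsR : s ∈ R := h.conj_mem hr t
    have h2 : (s * s) * (r * r) = 1 := by
      calc (s * s) * (r * r) = s * (s * r) * r := by group
        _ = s * (r * s) * r := by rw [hc s hsR r hr]
        _ = (s * r) * (s * r) := by group
        _ = 1 := h1
    calc t * (r * r) * t⁻¹ = s * s := by rw [hs]; group
      _ = (r * r)⁻¹ := eq_inv_of_mul_eq_one_left h2
  intro r hr
  set w := r * r with hw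
  have hwR : w ∈ R := R.mul_mem hr hr
  have h1 := key r hr
  have h2 := key (f * r * f⁻¹) (h.conj_mem hr f)
  have h3 : f * r * f⁻¹ * (f * r * f⁻¹) = f * w * f⁻¹ := by rw [hw]; group
  rw [h3] at h2
  have h4 : t * (f * w * f⁻¹) * t⁻¹ = (t * f * t⁻¹) * (t * w * t⁻¹) * (t * f * t⁻¹)⁻¹ := by group
  rw [← hw] at h1
  rw [h4, h.tf, h1] at h2
  -- h2 : f⁻¹ * w⁻¹ * f⁻¹⁻¹ = (f * w * f⁻¹)⁻¹
  have h5 : Commute (f ^ 2) w := by
    have h6 : f⁻¹ * w * f = f * w * f⁻¹ := by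
      have h7 := congrArg (fun x => x⁻¹) h2
      simp only [mul_inv_rev, inv_inv] at h7
      calc f⁻¹ * w * f = f⁻¹ * (w * f) := by group
        _ = _ := h7
    show f ^ 2 * w = w * f ^ 2
    rw [pow_two]
    calc f * f * w = f * (f * w * f⁻¹) * f := by group
      _ = f * (f⁻¹ * w * f) * f := by rw [h6]
      _ = w * (f * f) := by group
  have hp2 : ¬ p ∣ 2 := by
    intro hd
    exact h.ne2 ((Nat.prime_dvd_prime_iff_eq h.prime Nat.prime_two).mp hd)
  exact h.fpf w hwR (h.commute_of_pow hp2 h5).eq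

/-- The class two case. -/
theorem comm_of_class_two (h : Hyp R f t p)
    (hcl : ∀ a ∈ R, ∀ b ∈ R, ∀ c ∈ R, ⁅a, b⁆ * c = c * ⁅a, b⁆) :
    ∀ a ∈ R, ∀ b ∈ R, a * b = b * a := by
  have hRn := h.normal
  have hRfin := h.fin
  set D : Subgroup G := ⁅R, R⁆ with hD
  have hDn : D.Normal := Subgroup.commutator_normal R R
  have hDR : D ≤ R := commutator_le_left R R
  set π := QuotientGroup.mk' D with hπ
  have hπD : ∀ x : G, π x = 1 ↔ x ∈ D := by
    intro x
    rw [hπ, QuotientGroup.mk'_apply, QuotientGroup.eq_one_iff]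
  have hπeq : ∀ x y : G, π x = π y → ∃ d ∈ D, x = y * d := by
    intro x y hxy
    refine ⟨y⁻¹ * x, ?_, by group⟩
    rw [← hπD, map_mul, map_inv, hxy]; group
  have hq := h.quot D hDR
  have hπcomm : ∀ a ∈ R, ∀ b ∈ R, π a * π b = π b * π a := by
    intro a ha b hb
    have : π ⁅a, b⁆ = 1 := (hπD _).mpr (commutator_mem_commutator ha hb)
    rw [map_commutatorElement] at this
    exact commutatorElement_eq_one_iff_mul_comm.mp this
  have hπsq : ∀ a ∈ R, π a * π a = 1 := by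
    intro a ha
    refine hq.sq_eq_one_of_comm ?_ _ (mem_map_of_mem _ ha)
    rintro _ ⟨x, hx, rfl⟩ _ ⟨y, hy, rfl⟩
    exact hπcomm x hx y hy
  have hsqD : ∀ a ∈ R, a * a ∈ D := by
    intro a ha
    rw [← hπD, map_mul]
    exact hπsq a ha
  -- `D` is central in `R`
  have hDc : ∀ d ∈ D, ∀ x ∈ R, d * x = x * d := by
    have : D ≤ centralizer (R : Set G) := by
      rw [hD, commutator_le]
      intro a ha b hb
      rw [mem_centralizer_iff]
      intro c hc
      exact (hcl a ha b hb c hc).symm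
    intro d hd x hx
    have := this hd
    rw [mem_centralizer_iff] at this
    exact (this x hx).symm
  -- `D` has exponent two
  have hDsq : ∀ d ∈ D, d * d = 1 := by
    let S : Subgroup G :=
      { carrier := {x | x ∈ D ∧ x * x = 1}
        mul_mem' := by
          rintro x y ⟨hx, hx2⟩ ⟨hy, hy2⟩
          refine ⟨D.mul_mem hx hy, ?_⟩
          calc x * y * (x * y) = x * (y * x) * y := by group
            _ = x * (x * y) * y := by rw [hDc x hx y (hDR hy)]
            _ = (x * x) * (y * y) := by group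
            _ = 1 := by rw [hx2, hy2, mul_one]
        one_mem' := ⟨D.one_mem, by group⟩
        inv_mem' := by
          rintro x ⟨hx, hx2⟩
          refine ⟨D.inv_mem hx, ?_⟩
          rw [← mul_inv_rev, hx2, inv_one] }
    have : D ≤ S := by
      rw [hD, commutator_le]
      intro a ha b hb
      refine ⟨commutator_mem_commutator ha hb, ?_⟩
      have h1 := hDc (a * a) (hsqD a ha) b hb
      have h2 := hcl a ha b hb a ha
      calc ⁅a, b⁆ * ⁅a, b⁆ = ⁅a, b⁆ * a * (b * a⁻¹ * b⁻¹) := by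
            simp only [commutatorElement_def]; group
        _ = a * ⁅a, b⁆ * (b * a⁻¹ * b⁻¹) := by rw [h2]
        _ = (a * a * b) * (a⁻¹ * a⁻¹ * b⁻¹) := by
            simp only [commutatorElement_def]; group
        _ = (b * (a * a)) * (a⁻¹ * a⁻¹ * b⁻¹) := by rw [h1]
        _ = 1 := by group
    exact fun d hd => (this hd).2
  -- the set `A`
  set A : Set G := {a | a ∈ R ∧ π (t * a * t⁻¹) = π a} with hA
  have hcomm_conj : ∀ a ∈ R, ∀ b ∈ R, ∀ d ∈ D, ∀ e ∈ D, ⁅a * d, b * e⁆ = ⁅a, b⁆ := by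
    intro a ha b hb d hd e he
    have hd1 : d * b = b * d := hDc d hd b hb
    have hd2 : e * a = a * e := hDc e he a ha
    have hd3 : e * d = d * e := hDc e he d (hDR hd)
    have cd1 : Commute d b := hd1
    have ce1 : Commute e a := hd2
    have ced : Commute e d := hd3
    calc ⁅a * d, b * e⁆ = a * d * (b * e) * (d⁻¹ * a⁻¹) * (e⁻¹ * b⁻¹) := by
          simp only [commutatorElement_def, mul_inv_rev]
      _ = a * (d * (b * e) * d⁻¹) * a⁻¹ * (e⁻¹ * b⁻¹) := by group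
      _ = a * (b * e) * a⁻¹ * (e⁻¹ * b⁻¹) := by
          rw [(cd1.mul_right ced.symm).eq]; group
      _ = a * b * (e * a⁻¹) * (e⁻¹ * b⁻¹) := by group
      _ = a * b * (a⁻¹ * e) * (e⁻¹ * b⁻¹) := by rw [ce1.inv_right.eq]
      _ = ⁅a, b⁆ := by simp only [commutatorElement_def]; group
  have hAR : ∀ a ∈ A, a ∈ R := fun a ha => ha.1
  have hAsq : ∀ a ∈ A, a * a = 1 := by
    intro a ha
    obtain ⟨haR, hat⟩ := ha
    obtain ⟨u, hu, hau⟩ := surj R (g := f) (fun m hm => h.conj_mem hm f) h.fpf haR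
    have hsR : t * u * t⁻¹ ∈ R := h.conj_mem hu t
    have hfu : f * u * f⁻¹ ∈ R := h.conj_mem hu f
    -- the element `g = s * u^f` is fixed by `f` modulo `D`
    have hfix : π (t * u * t⁻¹) = π (f * u * f⁻¹) := by
      have h1 : t * a * t⁻¹ = (t * u * t⁻¹)⁻¹ * (f⁻¹ * (t * u * t⁻¹) * f) := by
        rw [hau]
        calc t * (u⁻¹ * (f * u * f⁻¹)) * t⁻¹
            = (t * u * t⁻¹)⁻¹ * ((t * f * t⁻¹) * (t * u * t⁻¹) * (t * f * t⁻¹)⁻¹) := by group
          _ = _ := by rw [h.tf, inv_inv]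
      set s := t * u * t⁻¹ with hs
      -- apply `f` to both sides
      have h2 : π (f * (s⁻¹ * (f⁻¹ * s * f)) * f⁻¹) = π (f * (u⁻¹ * (f * u * f⁻¹)) * f⁻¹) := by
        rw [map_mul, map_mul, ← h1, hat, hau]
        simp only [map_mul]
      have h3 : f * (s⁻¹ * (f⁻¹ * s * f)) * f⁻¹ = (f * s * f⁻¹)⁻¹ * s := by group
      have h4 : f * (u⁻¹ * (f * u * f⁻¹)) * f⁻¹ =
        (f * u * f⁻¹)⁻¹ * (f * (f * u * f⁻¹) * f⁻¹) := by group
      rw [h3, h4] at h2
      set v := f * u * f⁻¹ with hv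
      have hfs : f * s * f⁻¹ ∈ R := h.conj_mem hsR f
      have hfv : f * v * f⁻¹ ∈ R := h.conj_mem hfu f
      have h5 : π (f * (s * v⁻¹) * f⁻¹) = π (s * v⁻¹) := by
        have e1 : f * (s * v⁻¹) * f⁻¹ = (f * s * f⁻¹) * (f * v * f⁻¹)⁻¹ := by group
        rw [e1, map_mul π (f * s * f⁻¹), map_inv π (f * v * f⁻¹), map_mul π s, map_inv π v]
        rw [map_mul π (f * s * f⁻¹)⁻¹, map_inv π (f * s * f⁻¹), map_mul π v⁻¹, map_inv π v] at h2
        -- h2 : (π(fsf⁻¹))⁻¹ * π s = (π v)⁻¹ * π (f v f⁻¹)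
        have c1 := hπcomm _ hfs _ hsR
        have c2 := hπcomm _ hfv _ hfu
        have s1 : (π (f * s * f⁻¹))⁻¹ = π (f * s * f⁻¹) :=
          inv_eq_of_mul_eq_one_left (hπsq _ hfs)
        have s2 : (π v)⁻¹ = π v := inv_eq_of_mul_eq_one_left (hπsq _ hfu)
        have s3 : (π (f * v * f⁻¹))⁻¹ = π (f * v * f⁻¹) :=
          inv_eq_of_mul_eq_one_left (hπsq _ hfv)
        rw [s3, s2]
        rw [s1, s2] at h2
        -- h2 : π(fsf⁻¹) * π s = π v * π (f v f⁻¹)
        have h6 : π (f * s * f⁻¹) = π v * π (f * v * f⁻¹) * π s := by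
          rw [← h2, mul_assoc (π (f * s * f⁻¹)) (π s) (π s), hπsq _ hsR, mul_one]
        rw [h6, mul_assoc, mul_assoc, hπcomm _ hsR _ hfv, ← mul_assoc (π (f * v * f⁻¹)),
          hπsq _ hfv, one_mul, hπcomm _ hfu _ hsR]
      have h6 : π f * π (s * v⁻¹) = π (s * v⁻¹) * π f := by
        have e : π (f * (s * v⁻¹) * f⁻¹) = π f * π (s * v⁻¹) * (π f)⁻¹ := by
          rw [map_mul, map_mul, map_inv]
        rw [e] at h5
        exact mul_inv_eq_iff_eq_mul.mp h5
      have h7 := hq.fpf (π (s * v⁻¹)) (mem_map_of_mem _ (R.mul_mem hsR (R.inv_mem hfu))) h6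
      rw [map_mul, map_inv, mul_inv_eq_one] at h7
      exact h7
    -- so `a ≡ (t u t⁻¹) * u`
    have h8 : π a = π (t * u * t⁻¹ * u) := by
      rw [hau, map_mul, map_inv, ← hfix, map_mul (π) (t * u * t⁻¹) u]
      have s2 : (π u)⁻¹ = π u := inv_eq_of_mul_eq_one_left (hπsq _ hu)
      rw [s2, hπcomm _ hu _ hsR]
    obtain ⟨d, hd, had⟩ := hπeq _ _ h8
    have hxR : t * u * t⁻¹ * u ∈ R := R.mul_mem hsR hu
    rw [had]
    calc t * u * t⁻¹ * u * d * (t * u * t⁻¹ * u * d)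
        = (t * u * t⁻¹ * u) * (d * (t * u * t⁻¹ * u)) * d := by group
      _ = (t * u * t⁻¹ * u) * ((t * u * t⁻¹ * u) * d) * d := by rw [hDc d hd _ hxR]
      _ = ((t * u * t⁻¹ * u) * (t * u * t⁻¹ * u)) * (d * d) := by group
      _ = 1 := by rw [h.four u hu, hDsq d hd, mul_one]
  have hAmul : ∀ a ∈ A, ∀ b ∈ A, a * b ∈ A := by
    intro a ha b hb
    refine ⟨R.mul_mem ha.1 hb.1, ?_⟩
    have : t * (a * b) * t⁻¹ = (t * a * t⁻¹) * (t * b * t⁻¹) := by group
    rw [this, map_mul, ha.2, hb.2, ← map_mul]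
  have hAcomm : ∀ a ∈ A, ∀ b ∈ A, a * b = b * a := by
    intro a ha b hb
    have h1 := hAsq _ (hAmul a ha b hb)
    have h2 : (a * b)⁻¹ = a * b := inv_eq_of_mul_eq_one_left h1
    rw [mul_inv_rev, inv_eq_of_mul_eq_one_left (hAsq a ha),
      inv_eq_of_mul_eq_one_left (hAsq b hb)] at h2
    exact h2.symm
  have htfn : ∀ i : ℕ, t * f ^ i * t⁻¹ = (f ^ i)⁻¹ := by
    intro i
    have : t * f ^ i * t⁻¹ = (t * f * t⁻¹) ^ i := by
      rw [conj_pow]
    rw [this, h.tf, inv_pow]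
  -- `⁅a, b^{f^i}⁆ = ⁅a, b^{f^{-i}}⁆` commutes with `t`
  have hstep : ∀ a ∈ A, ∀ b ∈ A, ∀ i : ℕ,
      ⁅a, f ^ i * b * (f ^ i)⁻¹⁆ = ⁅a, (f ^ i)⁻¹ * b * f ^ i⁆ ∧
      Commute t ⁅a, f ^ i * b * (f ^ i)⁻¹⁆ := by
    intro a ha b hb i
    set b1 := f ^ i * b * (f ^ i)⁻¹ with hb1
    set b2 := (f ^ i)⁻¹ * b * f ^ i with hb2
    have hb1R : b1 ∈ R := h.conj_mem hb.1 _
    have hb2R : b2 ∈ R := by
      have := h.conj_mem hb.1 (f ^ i)⁻¹
      rwa [inv_inv] at this
    have ht1 : π (t * b1 * t⁻¹) = π b2 := by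
      have e : t * b1 * t⁻¹ = (t * f ^ i * t⁻¹) * (t * b * t⁻¹) * (t * f ^ i * t⁻¹)⁻¹ := by
        rw [hb1]; group
      rw [e, htfn, inv_inv, map_mul, map_mul, hb.2, ← map_mul, ← map_mul]
    have ht2 : π (t * b2 * t⁻¹) = π b1 := by
      have e : t * b2 * t⁻¹ = (t * f ^ i * t⁻¹)⁻¹ * (t * b * t⁻¹) * (t * f ^ i * t⁻¹) := by
        rw [hb2]; group
      rw [e, htfn, inv_inv, map_mul, map_mul, hb.2, ← map_mul, ← map_mul]
    have hbA : b1 * b2 ∈ A := by
      refine ⟨R.mul_mem hb1R hb2R, ?_⟩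
      have e : t * (b1 * b2) * t⁻¹ = (t * b1 * t⁻¹) * (t * b2 * t⁻¹) := by group
      rw [e, map_mul π (t * b1 * t⁻¹), ht1, ht2, map_mul π b1, hπcomm _ hb2R _ hb1R]
    have h1 := hAcomm a ha _ hbA
    -- `⁅a, b1 b2⁆ = ⁅a, b1⁆ ⁅a, b2⁆`
    have h2 : ⁅a, b1 * b2⁆ = ⁅a, b1⁆ * ⁅a, b2⁆ := by
      have hc := hcl a ha.1 b2 hb2R b1 hb1R
      calc ⁅a, b1 * b2⁆ = ⁅a, b1⁆ * (b1 * ⁅a, b2⁆) * b1⁻¹ := by
            simp only [commutatorElement_def]; group
        _ = ⁅a, b1⁆ * (⁅a, b2⁆ * b1) * b1⁻¹ := by rw [hc]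
        _ = _ := by group
    have h3 : ⁅a, b1⁆ * ⁅a, b2⁆ = 1 := by
      rw [← h2]; exact commutatorElement_eq_one_iff_mul_comm.mpr h1
    have h4 : ⁅a, b1⁆ = ⁅a, b2⁆ := by
      rw [eq_inv_of_mul_eq_one_left h3]
      exact inv_eq_of_mul_eq_one_left (hDsq _ (commutator_mem_commutator ha.1 hb2R))
    refine ⟨h4, ?_⟩
    obtain ⟨d, hd, hda⟩ := hπeq _ _ ha.2
    obtain ⟨e, he, heb⟩ := hπeq _ _ ht1
    have h5 : t * ⁅a, b1⁆ * t⁻¹ = ⁅a, b1⁆ := by
      calc t * ⁅a, b1⁆ * t⁻¹ = ⁅t * a * t⁻¹, t * b1 * t⁻¹⁆ := by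
            simp only [commutatorElement_def]; group
        _ = ⁅a, b2⁆ := by rw [hda, heb, hcomm_conj a ha.1 b2 hb2R d hd e he]
        _ = _ := h4.symm
    exact mul_inv_eq_iff_eq_mul.mp h5
  -- all `⁅a, b^{f^i}⁆` are trivial
  have hall : ∀ a ∈ A, ∀ b ∈ A, ∀ i : ℕ, a * (f ^ i * b * (f ^ i)⁻¹) =
      (f ^ i * b * (f ^ i)⁻¹) * a := by
    intro a ha b hb i
    by_cases hi : p ∣ i
    · have : f ^ i = 1 := by
        obtain ⟨k, rfl⟩ := hi
        rw [pow_mul, h.fp, one_pow]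
      rw [this]
      have := hAcomm a ha b hb
      simpa using this
    · obtain ⟨h1, h2⟩ := hstep a ha b hb i
      obtain ⟨h3, h4⟩ := hstep b hb a ha i
      set w := ⁅a, f ^ i * b * (f ^ i)⁻¹⁆ with hw
      have hbiR : f ^ i * b * (f ^ i)⁻¹ ∈ R := h.conj_mem hb.1 _
      have haiR : (f ^ i)⁻¹ * a * f ^ i ∈ R := by
        have := h.conj_mem ha.1 (f ^ i)⁻¹
        rwa [inv_inv] at this
      have hwD : w ∈ D := commutator_mem_commutator ha.1 hbiR
      -- conj of w by f^{-i}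
      have h5 : (f ^ i)⁻¹ * w * f ^ i = ⁅b, (f ^ i)⁻¹ * a * f ^ i⁆⁻¹ := by
        rw [hw, commutatorElement_inv]
        simp only [commutatorElement_def]; group
      rw [← h3] at h5
      have h6 : Commute t ((f ^ i)⁻¹ * w * f ^ i) := by
        rw [h5]; exact h4.inv_right
      have h7 : Commute (f ^ i * t * (f ^ i)⁻¹) w := by
        have e := h6.eq
        show f ^ i * t * (f ^ i)⁻¹ * w = w * (f ^ i * t * (f ^ i)⁻¹)
        calc f ^ i * t * (f ^ i)⁻¹ * w = f ^ i * (t * ((f ^ i)⁻¹ * w * f ^ i)) * (f ^ i)⁻¹ := by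
              group
          _ = f ^ i * (((f ^ i)⁻¹ * w * f ^ i) * t) * (f ^ i)⁻¹ := by rw [e]
          _ = _ := by group
      have h8 : f ^ i * t * (f ^ i)⁻¹ = f ^ (2 * i) * t := by
        have e := htfn i
        have e2 : t * (f ^ i)⁻¹ = f ^ i * t := by
          have : t * (f ^ i)⁻¹ * t⁻¹ = f ^ i := by
            have e3 : t * (f ^ i)⁻¹ * t⁻¹ = (t * f ^ i * t⁻¹)⁻¹ := by group
            rw [e3, e, inv_inv]
          exact mul_inv_eq_iff_eq_mul.mp this
        rw [mul_assoc, e2, ← mul_assoc, ← pow_add, two_mul]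
      have h9 : Commute (f ^ (2 * i)) w := by
        have e : f ^ (2 * i) = (f ^ i * t * (f ^ i)⁻¹) * t⁻¹ := by rw [h8]; group
        rw [e]
        exact h7.mul_left h2.inv_left
      have h10 : ¬ p ∣ 2 * i := by
        intro hd
        rcases (h.prime.dvd_mul).mp hd with hd | hd
        · exact h.ne2 ((Nat.prime_dvd_prime_iff_eq h.prime Nat.prime_two).mp hd)
        · exact hi hd
      have h11 : w = 1 := h.fpf w (hDR hwD) (h.commute_of_pow h10 h9).eq
      exact commutatorElement_eq_one_iff_mul_comm.mp h11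
  -- the subgroup `W`
  let gens : Set G := (D : Set G) ∪ {x | ∃ i : ℕ, ∃ a ∈ A, x = f ^ i * a * (f ^ i)⁻¹}
  have hgensR : ∀ x ∈ gens, x ∈ R := by
    rintro x (hx | ⟨i, a, ha, rfl⟩)
    · exact hDR hx
    · exact h.conj_mem ha.1 _
  have hgens : ∀ x ∈ gens, ∀ y ∈ gens, x * y = y * x := by
    rintro x hx y hy
    rcases hx with hx' | ⟨i, a, ha, rfl⟩
    · exact hDc x hx' y (hgensR y hy)
    · rcases hy with hy' | ⟨j, b, hb, rfl⟩
      · exact (hDc y hy' _ (h.conj_mem ha.1 _)).symm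
      · rcases le_total i j with hij | hij
        · obtain ⟨k, rfl⟩ := Nat.exists_eq_add_of_le hij
          have e := hall a ha b hb k
          rw [pow_add]
          calc f ^ i * a * (f ^ i)⁻¹ * (f ^ i * f ^ k * b * (f ^ i * f ^ k)⁻¹)
              = f ^ i * (a * (f ^ k * b * (f ^ k)⁻¹)) * (f ^ i)⁻¹ := by group
            _ = f ^ i * ((f ^ k * b * (f ^ k)⁻¹) * a) * (f ^ i)⁻¹ := by rw [e]
            _ = _ := by group
        · obtain ⟨k, rfl⟩ := Nat.exists_eq_add_of_le hij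
          have e := hall b hb a ha k
          rw [pow_add]
          calc f ^ j * f ^ k * a * (f ^ j * f ^ k)⁻¹ * (f ^ j * b * (f ^ j)⁻¹)
              = f ^ j * ((f ^ k * a * (f ^ k)⁻¹) * b) * (f ^ j)⁻¹ := by group
            _ = f ^ j * (b * (f ^ k * a * (f ^ k)⁻¹)) * (f ^ j)⁻¹ := by rw [e]
            _ = _ := by group
  set W : Subgroup G := closure gens with hW
  have hWcomm : ∀ x ∈ W, ∀ y ∈ W, x * y = y * x := by
    have := Subgroup.isMulCommutative_closure hgens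
    intro x hx y hy
    exact congrArg Subtype.val (this.is_comm.comm ⟨x, hx⟩ ⟨y, hy⟩)
  have hDW : D ≤ W := fun x hx => subset_closure (Or.inl hx)
  have hWR : W ≤ R := by
    rw [hW, closure_le]
    exact hgensR
  have hWf : ∀ w ∈ W, f * w * f⁻¹ ∈ W := by
    have : W ≤ W.comap (MulAut.conj f).toMonoidHom := by
      conv_lhs => rw [hW]
      rw [closure_le]
      rintro x (hx | ⟨i, a, ha, rfl⟩)
      · exact hDW (hDn.conj_mem x hx f)
      · refine subset_closure (Or.inr ⟨i + 1, a, ha, ?_⟩)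
        show f * (f ^ i * a * (f ^ i)⁻¹) * f⁻¹ = _
        rw [pow_succ']; group
    intro w hw
    exact this hw
  have htrW : ∀ r ∈ R, t * r * t⁻¹ * r ∈ W := by
    intro r hr
    have htr : t * r * t⁻¹ ∈ R := h.conj_mem hr t
    refine subset_closure (Or.inr ⟨0, t * r * t⁻¹ * r, ⟨R.mul_mem htr hr, ?_⟩, by group⟩)
    have e : t * (t * r * t⁻¹ * r) * t⁻¹ = (t * (t * r * t⁻¹) * t⁻¹) * (t * r * t⁻¹) := by group
    rw [e, h.tt r hr, map_mul π r, map_mul π (t * r * t⁻¹), hπcomm _ hr _ htr]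
  -- `R ≤ W`
  have hRW : R ≤ W := by
    intro x hx
    have hfpf2 : ∀ m ∈ R, f ^ 2 * m = m * f ^ 2 → m = 1 := by
      intro m hm hc
      have hp2 : ¬ p ∣ 2 := by
        intro hd
        exact h.ne2 ((Nat.prime_dvd_prime_iff_eq h.prime Nat.prime_two).mp hd)
      exact h.fpf m hm (h.commute_of_pow hp2 hc).eq
    obtain ⟨r, hr, hxr⟩ := surj R (g := f ^ 2) (fun m hm => h.conj_mem hm _) hfpf2 hx
    have hsR : t * r * t⁻¹ ∈ R := h.conj_mem hr t
    obtain ⟨w1, hw1, hw1e⟩ : ∃ w1 ∈ W, t * r * t⁻¹ = w1 * r⁻¹ :=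
      ⟨_, htrW r hr, by group⟩
    set s := t * r * t⁻¹ with hs
    have hyR : f⁻¹ * s * f ∈ R := by
      have := h.conj_mem hsR f⁻¹
      rwa [inv_inv] at this
    obtain ⟨w2, hw2, hw2e⟩ : ∃ w2 ∈ W, t * (f⁻¹ * s * f) * t⁻¹ = w2 * (f⁻¹ * s * f)⁻¹ :=
      ⟨_, htrW _ hyR, by group⟩
    have h1 : f ^ 2 * r * (f ^ 2)⁻¹ = f * (t * (f⁻¹ * s * f) * t⁻¹) * f⁻¹ := by
      have e1 : t * f⁻¹ * t⁻¹ = f := by
        have : t * f⁻¹ * t⁻¹ = (t * f * t⁻¹)⁻¹ := by group
        rw [this, h.tf, inv_inv]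
      have e2 : t * (f⁻¹ * s * f) * t⁻¹ =
          (t * f⁻¹ * t⁻¹) * (t * s * t⁻¹) * (t * f⁻¹ * t⁻¹)⁻¹ := by group
      rw [e2, e1, hs, h.tt r hr, pow_two]
      group
    have h2 : x = r⁻¹ * ((f * w2 * f⁻¹) * (r * w1⁻¹)) := by
      rw [hxr, h1, hw2e]
      have e : f * (w2 * (f⁻¹ * s * f)⁻¹) * f⁻¹ = (f * w2 * f⁻¹) * s⁻¹ := by group
      rw [e, hw1e, mul_inv_rev, inv_inv]
    have h3 : x = ⁅r⁻¹, f * w2 * f⁻¹⁆ * (f * w2 * f⁻¹) * w1⁻¹ := by
      rw [h2]
      simp only [commutatorElement_def]; group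
    rw [h3]
    refine W.mul_mem (W.mul_mem (hDW ?_) (hWf _ hw2)) (W.inv_mem hw1)
    exact commutator_mem_commutator (R.inv_mem hr) (hWR (hWf _ hw2))
  intro a ha b hb
  exact hWcomm a (hRW ha) b (hRW hb)

/-- **The dihedral lemma**: `R` is abelian ... -/
theorem comm [Finite G] (h : Hyp R f t p) : ∀ a ∈ R, ∀ b ∈ R, a * b = b * a := by
  have hRn := h.normal
  set D : Subgroup G := ⁅R, R⁆ with hD
  set E : Subgroup G := ⁅D, R⁆ with hE
  have hDn : D.Normal := Subgroup.commutator_normal R R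
  have hEn : E.Normal := Subgroup.commutator_normal D R
  have hDR : D ≤ R := commutator_le_left R R
  have hER : E ≤ R := (commutator_le_left D R).trans hDR
  have hq := h.quot E hER
  have hc := hq.comm_of_class_two (by
    rintro _ ⟨a, ha, rfl⟩ _ ⟨b, hb, rfl⟩ _ ⟨c, hc, rfl⟩
    rw [← map_commutatorElement]
    have h1 : ⁅⁅a, b⁆, c⁆ ∈ E := commutator_mem_commutator (commutator_mem_commutator ha hb) hc
    have h2 : QuotientGroup.mk' E ⁅⁅a, b⁆, c⁆ = 1 := by
      rw [QuotientGroup.mk'_apply, QuotientGroup.eq_one_iff]; exact h1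
    rw [map_commutatorElement] at h2
    exact commutatorElement_eq_one_iff_mul_comm.mp h2)
  have hDE : D ≤ E := by
    rw [hD, commutator_le]
    intro a ha b hb
    have h1 := hc _ (mem_map_of_mem (QuotientGroup.mk' E) ha) _
      (mem_map_of_mem (QuotientGroup.mk' E) hb)
    have h2 : QuotientGroup.mk' E ⁅a, b⁆ = 1 := by
      rw [map_commutatorElement]
      exact commutatorElement_eq_one_iff_mul_comm.mpr h1
    rw [QuotientGroup.mk'_apply, QuotientGroup.eq_one_iff] at h2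
    exact h2
  -- nilpotency
  have hnil : Group.IsNilpotent R := h.two.isNilpotent
  have hDbot : D = ⊥ := by
    have hk : ∀ k : ℕ, D ≤ (R.lowerCentralSeries k) := by
      intro k
      induction k with
      | zero => exact hDR
      | succ k ih =>
          calc D ≤ ⁅D, R⁆ := hDE
            _ ≤ ⁅R.lowerCentralSeries k, R⁆ := commutator_mono ih le_rfl
            _ = R.lowerCentralSeries (k + 1) := rfl
    obtain ⟨n, hn⟩ := (Subgroup.isNilpotent_iff_lowerCentralSeries (S := R)).mp hnil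
    have := hk n
    rw [hn] at this
    exact le_bot_iff.mp this
  intro a ha b hb
  have h1 : ⁅a, b⁆ ∈ D := commutator_mem_commutator ha hb
  rw [hDbot, mem_bot] at h1
  exact commutatorElement_eq_one_iff_mul_comm.mp h1

/-- **The dihedral lemma**: ... and of exponent two. -/
theorem sq_eq_one [Finite G] (h : Hyp R f t p) : ∀ r ∈ R, r * r = 1 :=
  h.sq_eq_one_of_comm h.comm

end Hyp

end Cfsg.Agent.H497.DihedralTwo
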