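import Mathlib
import Cfsg.Agent.H497.Basic
import Cfsg.Agent.H497.DihedralTwo

/-!
The fixed point lemma for groups of Frobenius type acting on abelian groups, and lifts of
`p`-elements.
-/

set_option autoImplicit false

namespace Cfsg.Agent.H497

open Subgroup

/-- `(v g)^n = (∏_{j<n} g^j v g^-j) g^n` -/
theorem mul_pow_eq_prod {G : Type*} [Group G] (v g : G) (n : ℕ) :
    (v * g) ^ n = ((List.range n).map (fun j => g ^ j * v * (g ^ j)⁻¹)).prod * g ^ n := by
  induction n with
  | zero => simp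
  | succ n ih =>
    rw [pow_succ, ih, List.range_succ, List.map_append, List.prod_append]
    simp only [List.map_cons, List.map_nil, List.prod_cons, List.prod_nil, mul_one]
    rw [pow_succ]
    group

/-- **Lemma F**: `E` is normalized by `y`, the elements `y^j`, `0 < j < n` act fixed-point-freely
on `E`, and the norm `∏_{j<n} y^j v` is trivial on the abelian group `V` of order prime to `|E|`.
Then `E` acts trivially on `V`. -/
theorem lemmaF {X V : Type*} [Group X] [Group V] [Finite V] (hVc : ∀ a b : V, a * b = b * a)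
    (φ : X →* MulAut V) (E : Subgroup X) [Finite E] (y : X) (n : ℕ) (hn : 0 < n)
    (hy : ∀ e ∈ E, y * e * y⁻¹ ∈ E)
    (hfpf : ∀ j, 0 < j → j < n → ∀ e ∈ E, y ^ j * e = e * y ^ j → e = 1)
    (hprod : ∀ v : V, ((List.range n).map (fun j => φ (y ^ j) v)).prod = 1)
    (hcop : (Nat.card V).Coprime (Nat.card E)) : ∀ e ∈ E, ∀ v : V, φ e v = v := by
  classical
  letI : CommGroup V := { (inferInstance : Group V) with mul_comm := hVc }
  have : Fintype E := Fintype.ofFinite E
  have hyj : ∀ j : ℕ, ∀ e ∈ E, y ^ j * e * (y ^ j)⁻¹ ∈ E := by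
    intro j
    induction j with
    | zero => intro e he; simpa using he
    | succ j ih =>
      intro e he
      have h1 := hy _ (ih e he)
      have e1 : y * (y ^ j * e * (y ^ j)⁻¹) * y⁻¹ = y ^ (j + 1) * e * (y ^ (j + 1))⁻¹ := by
        rw [pow_succ']; group
      rwa [e1] at h1
  have hprod' : ∀ v : V, ∏ j ∈ Finset.range n, φ (y ^ j) v = 1 := by
    intro v
    rw [← hprod v, ← List.prod_toFinset _ (List.nodup_range)]
    congr 1
    ext; simp
  -- the norm of `E`
  set NE : V → V := fun v => ∏ e : E, φ (e : X) v with hNE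
  have hNEfix : ∀ e ∈ E, ∀ v, φ e (NE v) = NE v := by
    intro e he v
    rw [hNE]
    simp only [map_prod]
    apply Fintype.prod_equiv (Equiv.mulLeft (⟨e, he⟩ : E))
    intro x
    simp
  -- the key computation
  have key : ∀ v : V, v ^ (Nat.card E) * ∏ j ∈ Finset.Ico 1 n, NE (φ (y ^ j) v) = 1 := by
    intro v
    have h1 : ∏ e : E, ∏ j ∈ Finset.range n, φ ((e : X)⁻¹ * y ^ j * e) v = 1 := by
      apply Finset.prod_eq_one
      intro e _
      have h2 : ∏ j ∈ Finset.range n, φ ((e : X)⁻¹ * y ^ j * e) v =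
          φ ((e : X)⁻¹) (∏ j ∈ Finset.range n, φ (y ^ j) (φ (e : X) v)) := by
        rw [map_prod]
        apply Finset.prod_congr rfl
        intro j _
        rw [map_mul, map_mul, MulAut.mul_apply, MulAut.mul_apply]
      rw [h2, hprod', map_one]
    rw [Finset.prod_comm] at h1
    rw [← h1, Finset.range_eq_Ico, ← Finset.prod_Ico_consecutive _ (Nat.zero_le 1) hn]
    congr 1
    · rw [show Finset.Ico 0 1 = {0} from rfl, Finset.prod_singleton]
      simp only [pow_zero, mul_one, inv_mul_cancel, map_one, MulAut.one_apply,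
        Finset.prod_const, Finset.card_univ]
      rw [Nat.card_eq_fintype_card]
    · apply Finset.prod_congr rfl
      intro j hj
      rw [Finset.mem_Ico] at hj
      have hinj : Function.Injective (fun e : E => (⟨(e : X)⁻¹ * (y ^ j * e * (y ^ j)⁻¹),
          E.mul_mem (E.inv_mem e.2) (hyj j e e.2)⟩ : E)) := by
        intro a b hab
        have h3 : (a : X)⁻¹ * (y ^ j * a * (y ^ j)⁻¹) = (b : X)⁻¹ * (y ^ j * b * (y ^ j)⁻¹) :=
          congrArg Subtype.val hab
        have h4 : y ^ j * ((b : X) * (a : X)⁻¹) = ((b : X) * (a : X)⁻¹) * y ^ j := by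
          have h5 : y ^ j * a * (y ^ j)⁻¹ = (a : X) * ((b : X)⁻¹ * (y ^ j * b * (y ^ j)⁻¹)) := by
            rw [← h3]; group
          have h6 : y ^ j * ((b : X) * (a : X)⁻¹) * (y ^ j)⁻¹ = (b : X) * (a : X)⁻¹ := by
            calc y ^ j * ((b : X) * (a : X)⁻¹) * (y ^ j)⁻¹
                = (y ^ j * b * (y ^ j)⁻¹) * (y ^ j * a * (y ^ j)⁻¹)⁻¹ := by group
              _ = (b : X) * (a : X)⁻¹ := by rw [h5]; group
          exact mul_inv_eq_iff_eq_mul.mp h6
        have h5 := hfpf j hj.1 hj.2 _ (E.mul_mem b.2 (E.inv_mem a.2)) h4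
        exact Subtype.ext (mul_inv_eq_one.mp h5).symm
      have hbij := Finite.injective_iff_bijective.mp hinj
      have h3 := Fintype.prod_equiv (Equiv.ofBijective _ hbij)
        (fun e : E => φ ((e : X)⁻¹ * y ^ j * e) v) (fun e : E => φ (e : X) (φ (y ^ j) v)) (by
          intro e
          simp only [Equiv.ofBijective_apply]
          rw [← MulAut.mul_apply, ← map_mul]
          congr 2
          group)
      exact h3.symm
  intro e he
  have hpow : ∀ v : V, φ e (v ^ Nat.card E) = v ^ Nat.card E := by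
    intro v
    have h1 : v ^ Nat.card E = (∏ j ∈ Finset.Ico 1 n, NE (φ (y ^ j) v))⁻¹ :=
      eq_inv_of_mul_eq_one_left (key v)
    rw [h1, map_inv, map_prod]
    congr 1
    exact Finset.prod_congr rfl fun j _ => hNEfix e he _
  intro v
  obtain ⟨m, hm⟩ := exists_pow_eq_self_of_coprime (x := v) (n := Nat.card E)
    (Nat.Coprime.coprime_dvd_right (orderOf_dvd_natCard v) hcop.symm)
  rw [← hm, map_pow, hpow]

/-- A `p`-element of a quotient lifts to a `p`-element. -/
theorem exists_lift_pElement {G : Type*} [Group G] [Finite G] (N : Subgroup G) [N.Normal] {p : ℕ}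
    (hp : p.Prime) (x : G ⧸ N) (a : ℕ) (hx : x ^ (p ^ a) = 1) :
    ∃ g : G, (QuotientGroup.mk' N g) = x ∧ IsPGroup p (zpowers g) := by
  obtain ⟨g0, rfl⟩ := QuotientGroup.mk'_surjective N x
  have hpos := orderOf_pos g0
  obtain ⟨b, m, hm, hbm⟩ := Nat.exists_eq_pow_mul_and_not_dvd hpos.ne' p hp.ne_one
  -- choose `k ≡ 1 mod p^a`, `k ≡ 0 mod m`
  have hcop : (p ^ a).Coprime m := Nat.Coprime.pow_left _ ((Nat.Prime.coprime_iff_not_dvd hp).mpr hm)
  obtain ⟨k, hk1, hk2⟩ := Nat.chineseRemainder hcop 1 0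
  refine ⟨g0 ^ k, ?_, ?_⟩
  · rw [map_pow]
    have h1 : k ≡ 1 [MOD orderOf (QuotientGroup.mk' N g0)] :=
      hk1.of_dvd (orderOf_dvd_of_pow_eq_one hx)
    rw [pow_eq_pow_iff_modEq.mpr h1, pow_one]
  · have hmk : m ∣ k := (Nat.modEq_zero_iff_dvd).mp hk2
    have h2 : (g0 ^ k) ^ (p ^ b) = 1 := by
      obtain ⟨c, rfl⟩ := hmk
      rw [← pow_mul, show m * c * p ^ b = (p ^ b * m) * c by ring, pow_mul, ← hbm,
        pow_orderOf_eq_one, one_pow]
    intro ⟨w, hw⟩
    obtain ⟨i, rfl⟩ := mem_zpowers_iff.mp hw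
    refine ⟨b, Subtype.ext ?_⟩
    show ((g0 ^ k) ^ i) ^ (p ^ b) = 1
    rw [← zpow_natCast, zpow_comm, zpow_natCast, h2, one_zpow]

end Cfsg.Agent.H497
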