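import Mathlib

/-!
Frobenius type subgroups of `A₅`, `A₆`, `S₅`.
-/

set_option autoImplicit false

namespace Cfsg.Agent.H497

open Subgroup Equiv Equiv.Perm

/-- `E` a nontrivial `p'`-subgroup (a `q`-group) normalized by `y`, with `y^j`, `0 < j < n` acting
fixed-point-freely. -/
def FrobData (K : Type*) [Group K] (p n : ℕ) : Prop :=
  ∃ (q : ℕ) (E : Subgroup K) (y : K), q.Prime ∧ q ≠ p ∧ E ≠ ⊥ ∧ IsPGroup q E ∧ y ^ n = 1 ∧
    (∀ e ∈ E, y * e * y⁻¹ ∈ E) ∧ ∀ j, 0 < j → j < n → ∀ e ∈ E, y ^ j * e = e * y ^ j → e = 1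

section
variable {K : Type*} [Group K]

theorem frobV4 (a b y : K) (ha : a * a = 1) (hb : b * b = 1) (hab : a * b = b * a)
    (hya : y * a * y⁻¹ = b) (hyb : y * b * y⁻¹ = a * b) (ha1 : a ≠ 1) (hb1 : b ≠ 1) (hab1 : a ≠ b)
    (hy3 : y ^ 3 = 1) : FrobData K 3 3 := by
  have hai : a⁻¹ = a := inv_eq_of_mul_eq_one_left ha
  have hbi : b⁻¹ = b := inv_eq_of_mul_eq_one_left hb
  have habi : (a * b)⁻¹ = a * b := by rw [mul_inv_rev, hai, hbi, hab]
  have haab : a * (a * b) = b := by rw [← mul_assoc, ha, one_mul]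
  have haba : (a * b) * a = b := by rw [hab, mul_assoc, ha, mul_one]
  have hbab : b * (a * b) = a := by rw [hab, ← mul_assoc, hb, one_mul]
  have habb : (a * b) * b = a := by rw [mul_assoc, hb, mul_one]
  have habab : (a * b) * (a * b) = 1 := by rw [mul_assoc, hbab, ha]
  have hab2 : a * b ≠ 1 := by
    intro h0
    apply hab1
    have := (inv_eq_of_mul_eq_one_right h0)
    rw [hai] at this
    exact this
  let E : Subgroup K :=
    { carrier := {x | x = 1 ∨ x = a ∨ x = b ∨ x = a * b}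
      one_mem' := Or.inl rfl
      mul_mem' := by
        rintro x z (rfl | rfl | rfl | rfl) (rfl | rfl | rfl | rfl) <;>
          simp only [Set.mem_ofPred_eq, one_mul, mul_one, ha, hb, haab, haba, hbab, habb, habab,
            hab.symm, true_or, or_true]
      inv_mem' := by
        rintro x (rfl | rfl | rfl | rfl) <;>
          simp only [Set.mem_ofPred_eq, inv_one, hai, hbi, habi, true_or, or_true] }
  have hE : ∀ x, x ∈ E ↔ x = 1 ∨ x = a ∨ x = b ∨ x = a * b := fun x => Iff.rfl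
  have hyab : y * (a * b) * y⁻¹ = a := by
    calc y * (a * b) * y⁻¹ = (y * a * y⁻¹) * (y * b * y⁻¹) := by group
      _ = a := by rw [hya, hyb, hbab]
  refine ⟨2, E, y, Nat.prime_two, by norm_num, ?_, ?_, hy3, ?_, ?_⟩
  · intro h0
    have h1 : a ∈ E := Or.inr (Or.inl rfl)
    rw [h0, mem_bot] at h1
    exact ha1 h1
  · rintro ⟨x, hx⟩
    refine ⟨1, Subtype.ext ?_⟩
    show x ^ (2 ^ 1) = 1
    rw [pow_one, pow_two]
    rcases hx with rfl | rfl | rfl | rfl
    · exact one_mul 1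
    · exact ha
    · exact hb
    · exact habab
  · intro e he
    rcases he with rfl | rfl | rfl | rfl
    · left; group
    · right; right; left; exact hya
    · right; right; right; exact hyb
    · right; left; exact hyab
  · -- fixed-point-free
    have h1 : ∀ e ∈ E, y * e = e * y → e = 1 := by
      intro e he hc
      have hc' : y * e * y⁻¹ = e := mul_inv_eq_iff_eq_mul.mpr hc
      rcases he with rfl | rfl | rfl | rfl
      · rfl
      · rw [hya] at hc'; exact absurd hc'.symm hab1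
      · rw [hyb] at hc'
        exact absurd (mul_eq_right.mp hc') ha1
      · rw [hyab] at hc'
        exact absurd (left_eq_mul.mp hc') hb1
    intro j hj0 hj3 e he hc
    have hj : j = 1 ∨ j = 2 := by omega
    rcases hj with rfl | rfl
    · rw [pow_one] at hc
      exact h1 e he hc
    · apply h1 e he
      have h2 : Commute (y ^ 2) e := hc
      have h3 := h2.pow_left 2
      rw [← pow_mul, show 2 * 2 = 3 + 1 by norm_num, pow_succ, hy3, one_mul] at h3
      exact h3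

theorem frob4 (E : Subgroup K) (y : K) {q : ℕ} (hq : q.Prime) (hq2 : q ≠ 2)
    (hE1 : E ≠ ⊥) (hexp : ∀ e ∈ E, e ^ q = 1) (hy : ∀ e ∈ E, y * e * y⁻¹ ∈ E)
    (hinv : ∀ e ∈ E, y ^ 2 * e * (y ^ 2)⁻¹ = e⁻¹) (hy4 : y ^ 4 = 1) : FrobData K 2 4 := by
  refine ⟨q, E, y, hq, hq2, hE1, fun x => ⟨1, by rw [pow_one]; exact Subtype.ext (hexp x x.2)⟩,
    hy4, hy, ?_⟩
  have key : ∀ e ∈ E, Commute (y ^ 2) e → e = 1 := by
    intro e he hc
    have h1 : y ^ 2 * e * (y ^ 2)⁻¹ = e := mul_inv_eq_iff_eq_mul.mpr hc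
    rw [hinv e he] at h1
    have h2 : e ^ 2 = 1 := by
      rw [pow_two]; nth_rewrite 1 [← h1]; group
    have h3 : orderOf e ∣ 2 := orderOf_dvd_of_pow_eq_one h2
    have h4 : orderOf e ∣ q := orderOf_dvd_of_pow_eq_one (hexp e he)
    have h5 := Nat.dvd_gcd h3 h4
    rw [Nat.Coprime.gcd_eq_one ((Nat.coprime_primes Nat.prime_two hq).mpr (Ne.symm hq2)),
      Nat.dvd_one, orderOf_eq_one_iff] at h5
    exact h5
  intro j hj0 hj4 e he hc
  have hj : j = 1 ∨ j = 2 ∨ j = 3 := by omega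
  have hc' : Commute (y ^ j) e := hc
  apply key e he
  rcases hj with rfl | rfl | rfl
  · have := hc'.pow_left 2
    rwa [← pow_mul, one_mul] at this
  · exact hc'
  · have := hc'.pow_left 2
    rwa [← pow_mul, show 3 * 2 = 4 + 2 by norm_num, pow_add, hy4, one_mul] at this

end

/-- `V₄` in `A_n` -/
theorem frob_A5_3 : FrobData (alternatingGroup (Fin 5)) 3 3 :=
  frobV4 ⟨swap 0 1 * swap 2 3, by rw [Perm.mem_alternatingGroup]; decide⟩
    ⟨swap 0 2 * swap 1 3, by rw [Perm.mem_alternatingGroup]; decide⟩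
    ⟨swap 1 2 * swap 2 3, by rw [Perm.mem_alternatingGroup]; decide⟩
    (Subtype.ext (by change (swap 0 1 * swap 2 3 : Perm (Fin 5)) * (swap 0 1 * swap 2 3) = 1; decide))
    (Subtype.ext (by change (swap 0 2 * swap 1 3 : Perm (Fin 5)) * (swap 0 2 * swap 1 3) = 1; decide))
    (Subtype.ext (by change (swap 0 1 * swap 2 3 : Perm (Fin 5)) * (swap 0 2 * swap 1 3) =
      (swap 0 2 * swap 1 3) * (swap 0 1 * swap 2 3); decide))
    (Subtype.ext (by change (swap 1 2 * swap 2 3 : Perm (Fin 5)) * (swap 0 1 * swap 2 3) *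
      (swap 1 2 * swap 2 3)⁻¹ = (swap 0 2 * swap 1 3); decide))
    (Subtype.ext (by change (swap 1 2 * swap 2 3 : Perm (Fin 5)) * (swap 0 2 * swap 1 3) *
      (swap 1 2 * swap 2 3)⁻¹ = (swap 0 1 * swap 2 3) * (swap 0 2 * swap 1 3); decide))
    (fun h => by
      have h1 : (swap 0 1 * swap 2 3 : Perm (Fin 5)) = 1 := congrArg Subtype.val h
      revert h1; decide)
    (fun h => by
      have h1 : (swap 0 2 * swap 1 3 : Perm (Fin 5)) = 1 := congrArg Subtype.val h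
      revert h1; decide)
    (fun h => by
      have h1 : (swap 0 1 * swap 2 3 : Perm (Fin 5)) = swap 0 2 * swap 1 3 := congrArg Subtype.val h
      revert h1; decide)
    (Subtype.ext (by change (swap 1 2 * swap 2 3 : Perm (Fin 5)) ^ 3 = 1; decide))

theorem frob_A6_3 : FrobData (alternatingGroup (Fin 6)) 3 3 :=
  frobV4 ⟨swap 0 1 * swap 2 3, by rw [Perm.mem_alternatingGroup]; decide⟩
    ⟨swap 0 2 * swap 1 3, by rw [Perm.mem_alternatingGroup]; decide⟩
    ⟨swap 1 2 * swap 2 3, by rw [Perm.mem_alternatingGroup]; decide⟩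
    (Subtype.ext (by change (swap 0 1 * swap 2 3 : Perm (Fin 6)) * (swap 0 1 * swap 2 3) = 1; decide))
    (Subtype.ext (by change (swap 0 2 * swap 1 3 : Perm (Fin 6)) * (swap 0 2 * swap 1 3) = 1; decide))
    (Subtype.ext (by change (swap 0 1 * swap 2 3 : Perm (Fin 6)) * (swap 0 2 * swap 1 3) =
      (swap 0 2 * swap 1 3) * (swap 0 1 * swap 2 3); decide))
    (Subtype.ext (by change (swap 1 2 * swap 2 3 : Perm (Fin 6)) * (swap 0 1 * swap 2 3) *
      (swap 1 2 * swap 2 3)⁻¹ = (swap 0 2 * swap 1 3); decide))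
    (Subtype.ext (by change (swap 1 2 * swap 2 3 : Perm (Fin 6)) * (swap 0 2 * swap 1 3) *
      (swap 1 2 * swap 2 3)⁻¹ = (swap 0 1 * swap 2 3) * (swap 0 2 * swap 1 3); decide))
    (fun h => by
      have h1 : (swap 0 1 * swap 2 3 : Perm (Fin 6)) = 1 := congrArg Subtype.val h
      revert h1; decide)
    (fun h => by
      have h1 : (swap 0 2 * swap 1 3 : Perm (Fin 6)) = 1 := congrArg Subtype.val h
      revert h1; decide)
    (fun h => by
      have h1 : (swap 0 1 * swap 2 3 : Perm (Fin 6)) = swap 0 2 * swap 1 3 := congrArg Subtype.val h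
      revert h1; decide)
    (Subtype.ext (by change (swap 1 2 * swap 2 3 : Perm (Fin 6)) ^ 3 = 1; decide))

/-- the subgroup generated by two commuting elements -/
def two {K : Type*} [Group K] (a b : K) (hab : Commute a b) : Subgroup K where
  carrier := {x | ∃ i j : ℤ, x = a ^ i * b ^ j}
  one_mem' := ⟨0, 0, by simp⟩
  mul_mem' := by
    rintro x z ⟨i, j, rfl⟩ ⟨k, l, rfl⟩
    refine ⟨i + k, j + l, ?_⟩
    rw [zpow_add, zpow_add, mul_assoc, ← mul_assoc (b ^ j), ((hab.zpow_zpow k j).eq).symm]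
    group
  inv_mem' := by
    rintro x ⟨i, j, rfl⟩
    refine ⟨-i, -j, ?_⟩
    rw [mul_inv_rev, zpow_neg, zpow_neg, ((hab.zpow_zpow i j).inv_inv).eq]

theorem frob9 {K : Type*} [Group K] (a b y : K) (ha : a ^ 3 = 1) (hb : b ^ 3 = 1)
    (hab : Commute a b) (hya : y * a * y⁻¹ = b) (hyb : y * b * y⁻¹ = a⁻¹) (ha1 : a ≠ 1)
    (hy4 : y ^ 4 = 1) : FrobData K 2 4 := by
  have hc : ∀ (x : K) (i : ℤ), y * x ^ i * y⁻¹ = (y * x * y⁻¹) ^ i := fun x i => by
    rw [conj_zpow]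
  have hyi : ∀ i j : ℤ, y * (a ^ i * b ^ j) * y⁻¹ = a ^ (-j) * b ^ i := by
    intro i j
    calc y * (a ^ i * b ^ j) * y⁻¹ = (y * a ^ i * y⁻¹) * (y * b ^ j * y⁻¹) := by group
      _ = b ^ i * a ^ (-j) := by rw [hc, hc, hya, hyb, inv_zpow, zpow_neg]
      _ = a ^ (-j) * b ^ i := ((hab.zpow_zpow (-j) i).eq).symm
  apply frob4 (two a b hab) y (q := 3) Nat.prime_three (by norm_num)
  · intro h0
    have h1 : a ∈ two a b hab := ⟨1, 0, by simp⟩
    rw [h0, mem_bot] at h1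
    exact ha1 h1
  · rintro _ ⟨i, j, rfl⟩
    rw [(hab.zpow_zpow i j).mul_pow, ← zpow_natCast, ← zpow_natCast, ← zpow_mul, ← zpow_mul,
      mul_comm i, mul_comm j, zpow_mul, zpow_mul, zpow_natCast, zpow_natCast, ha, hb, one_zpow,
      one_zpow, one_mul]
  · rintro _ ⟨i, j, rfl⟩
    exact ⟨-j, i, hyi i j⟩
  · rintro _ ⟨i, j, rfl⟩
    calc y ^ 2 * (a ^ i * b ^ j) * (y ^ 2)⁻¹ = y * (y * (a ^ i * b ^ j) * y⁻¹) * y⁻¹ := by
          rw [pow_two]; group
      _ = a ^ (-i) * b ^ (-j) := by rw [hyi, hyi]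
      _ = (a ^ i * b ^ j)⁻¹ := by
          rw [mul_inv_rev, zpow_neg, zpow_neg, ((hab.zpow_zpow i j).inv_inv).eq]
  · exact hy4

theorem frob_A6_2 : FrobData (alternatingGroup (Fin 6)) 2 4 :=
  frob9 ⟨swap 0 1 * swap 1 2, by rw [Perm.mem_alternatingGroup]; decide⟩
    ⟨swap 3 4 * swap 4 5, by rw [Perm.mem_alternatingGroup]; decide⟩
    ⟨swap 0 3 * (swap 1 4 * swap 4 2 * swap 2 5), by rw [Perm.mem_alternatingGroup]; decide⟩
    (Subtype.ext (by change (swap 0 1 * swap 1 2 : Perm (Fin 6)) ^ 3 = 1; decide))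
    (Subtype.ext (by change (swap 3 4 * swap 4 5 : Perm (Fin 6)) ^ 3 = 1; decide))
    (Subtype.ext (by change (swap 0 1 * swap 1 2 : Perm (Fin 6)) * (swap 3 4 * swap 4 5) =
      (swap 3 4 * swap 4 5) * (swap 0 1 * swap 1 2); decide))
    (Subtype.ext (by
      change (swap 0 3 * (swap 1 4 * swap 4 2 * swap 2 5) : Perm (Fin 6)) * (swap 0 1 * swap 1 2) *
        (swap 0 3 * (swap 1 4 * swap 4 2 * swap 2 5))⁻¹ = swap 3 4 * swap 4 5
      decide))
    (Subtype.ext (by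
      change (swap 0 3 * (swap 1 4 * swap 4 2 * swap 2 5) : Perm (Fin 6)) * (swap 3 4 * swap 4 5) *
        (swap 0 3 * (swap 1 4 * swap 4 2 * swap 2 5))⁻¹ = (swap 0 1 * swap 1 2)⁻¹
      decide))
    (fun h => by
      have h1 : (swap 0 1 * swap 1 2 : Perm (Fin 6)) = 1 := congrArg Subtype.val h
      revert h1; decide)
    (Subtype.ext (by
      change (swap 0 3 * (swap 1 4 * swap 4 2 * swap 2 5) : Perm (Fin 6)) ^ 4 = 1; decide))

/-- the five-cycle -/
def c5 : Perm (Fin 5) := swap 0 1 * swap 1 2 * swap 2 3 * swap 3 4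

/-- the four-cycle -/
def y4 : Perm (Fin 5) := swap 1 2 * swap 2 4 * swap 4 3

theorem frob_S5_2 : FrobData (Perm (Fin 5)) 2 4 := by
  have hc5 : c5 ^ 5 = 1 := by decide
  have hyc : y4 * c5 * y4⁻¹ = c5 ^ 2 := by decide
  have hyc2 : y4 ^ 2 * c5 * (y4 ^ 2)⁻¹ = c5⁻¹ := by decide
  apply frob4 (zpowers c5) y4 (q := 5) Nat.prime_five (by norm_num)
  · rw [Ne, zpowers_eq_bot]; decide
  · rintro _ ⟨i, rfl⟩
    show (c5 ^ i) ^ 5 = 1
    rw [← zpow_natCast, zpow_comm, zpow_natCast, hc5, one_zpow]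
  · rintro _ ⟨i, rfl⟩
    show y4 * c5 ^ i * y4⁻¹ ∈ _
    rw [← conj_zpow, hyc]
    exact zpow_mem (pow_mem (mem_zpowers c5) 2) i
  · rintro _ ⟨i, rfl⟩
    show y4 ^ 2 * c5 ^ i * (y4 ^ 2)⁻¹ = (c5 ^ i)⁻¹
    rw [← conj_zpow, hyc2, inv_zpow]
  · decide

end Cfsg.Agent.H497
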