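import Mathlib
import Cfsg.Agent.H497.Basic
import Cfsg.Agent.H497.AlmostSimple

/-!
An element of prime order `r` moving a component centralizes an involution.
-/

set_option autoImplicit false

namespace Cfsg.Agent.H497

open Subgroup Cfsg
open Cfsg.Agent.SignalizersComponents.Components

/-- A product of commuting elements of square one has square one. -/
theorem list_sq {X : Type*} [Group X] (l : List X) (h1 : ∀ a ∈ l, a * a = 1)
    (h2 : ∀ a ∈ l, ∀ b ∈ l, Commute a b) : l.prod * l.prod = 1 := by
  induction l with
  | nil => simp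
  | cons a l ih =>
      have h3 : Commute a l.prod := Commute.list_prod_right l a
        (fun b hb => h2 a List.mem_cons_self b (List.mem_cons_of_mem a hb))
      have h4 := ih (fun b hb => h1 b (List.mem_cons_of_mem a hb))
        (fun b hb c hc => h2 b (List.mem_cons_of_mem a hb) c (List.mem_cons_of_mem a hc))
      rw [List.prod_cons]
      calc a * l.prod * (a * l.prod) = a * (l.prod * a) * l.prod := by group
        _ = a * (a * l.prod) * l.prod := by rw [h3.eq]
        _ = (a * a) * (l.prod * l.prod) := by group
        _ = 1 := by rw [h1 a List.mem_cons_self, h4, mul_one]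

/-- If `x` has prime order `r` and moves the component `K`, then `x` centralizes an involution. -/
theorem exists_involution_of_moves {X : Type*} [Group X] [Finite X] (h : RadTriv X)
    {K : Subgroup X} (hK : IsComponent K) {i : X} (hiK : i ∈ K) (hi : orderOf i = 2) {r : ℕ}
    (hr : r.Prime) {x : X} (hx : orderOf x = r)
    (hmove : K.map (MulAut.conj x).toMonoidHom ≠ K) : ∃ j : X, orderOf j = 2 ∧ Commute x j := by
  have hii : i * i = 1 := by
    have := pow_orderOf_eq_one i
    rwa [hi, pow_two] at this
  have hi1 : i ≠ 1 := by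
    rintro rfl
    rw [orderOf_one] at hi
    omega
  -- the conjugates
  set a : ℕ → X := fun k => x ^ k * i * (x ^ k)⁻¹ with ha
  set Kc : ℕ → Subgroup X := fun k => K.map (MulAut.conj (x ^ k)).toMonoidHom with hKc
  have hKcomp : ∀ k, IsComponent (Kc k) := fun k => isComponent_conj (x ^ k) hK
  have haK : ∀ k, a k ∈ Kc k := fun k => ⟨i, hiK, rfl⟩
  have ha0 : a 0 = i := by simp [ha]
  have har : a r = i := by
    have : x ^ r = 1 := by rw [← hx]; exact pow_orderOf_eq_one x
    simp [ha, this]
  have hsq : ∀ k, a k * a k = 1 := by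
    intro k
    calc a k * a k = x ^ k * (i * i) * (x ^ k)⁻¹ := by simp only [ha]; group
      _ = 1 := by rw [hii]; group
  -- `K` is moved by all `x ^ k`, `r ∤ k`
  have hmv : ∀ k, ¬ r ∣ k → Kc k ≠ K := by
    intro k hk heq
    apply hmove
    have hn : x ^ k ∈ normalizer (K : Set X) := by
      rw [mem_normalizer_iff]
      intro g
      constructor
      · intro hg
        rw [← heq]
        exact ⟨g, hg, rfl⟩
      · intro hg
        rw [← heq] at hg
        obtain ⟨g', hg', hgg⟩ := hg
        have : g' = g := by
          have h1 : x ^ k * g' * (x ^ k)⁻¹ = x ^ k * g * (x ^ k)⁻¹ := hgg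
          exact mul_left_cancel (mul_right_cancel h1)
        rw [← this]
        exact hg'
    have hcop : k.Coprime (orderOf x) := by
      rw [hx]
      exact ((Nat.Prime.coprime_iff_not_dvd hr).mpr hk).symm
    obtain ⟨m, hm⟩ := exists_pow_eq_self_of_coprime hcop
    have hxn : x ∈ normalizer (K : Set X) := by
      rw [← hm]; exact pow_mem hn m
    apply le_antisymm
    · rintro _ ⟨g, hg, rfl⟩
      exact (mem_normalizer_iff.mp hxn g).mp hg
    · intro g hg
      refine ⟨x⁻¹ * g * x, ?_, ?_⟩
      · have := (mem_normalizer_iff.mp (inv_mem hxn) g).mp hg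
        rwa [inv_inv] at this
      · show x * (x⁻¹ * g * x) * x⁻¹ = g
        group
  have hdist : ∀ k l, k < l → l - k < r → Kc k ≠ Kc l := by
    intro k l hkl hlr heq
    have h1 : ¬ r ∣ (l - k) := by
      intro hd
      have := Nat.le_of_dvd (by omega) hd
      omega
    apply hmv _ h1
    obtain ⟨m, rfl⟩ := Nat.exists_eq_add_of_le hkl.le
    have e : k + m - k = m := by omega
    rw [e]
    ext g
    have h2 : x ^ k * g * (x ^ k)⁻¹ ∈ Kc k ↔ g ∈ K := by
      constructor
      · rintro ⟨g', hg', hgg⟩
        have h1 : x ^ k * g' * (x ^ k)⁻¹ = x ^ k * g * (x ^ k)⁻¹ := hgg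
        have : g' = g := mul_left_cancel (mul_right_cancel h1)
        rw [← this]; exact hg'
      · intro hg; exact ⟨g, hg, rfl⟩
    have h3 : x ^ k * g * (x ^ k)⁻¹ ∈ Kc (k + m) ↔ g ∈ Kc m := by
      constructor
      · rintro ⟨g', hg', hgg⟩
        have h1 : x ^ (k + m) * g' * (x ^ (k + m))⁻¹ = x ^ k * g * (x ^ k)⁻¹ := hgg
        refine ⟨g', hg', ?_⟩
        show x ^ m * g' * (x ^ m)⁻¹ = g
        have h4 : x ^ (k + m) * g' * (x ^ (k + m))⁻¹ =
          x ^ k * (x ^ m * g' * (x ^ m)⁻¹) * (x ^ k)⁻¹ := by rw [pow_add]; group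
        rw [h4] at h1
        exact mul_left_cancel (mul_right_cancel h1)
      · rintro ⟨g', hg', rfl⟩
        refine ⟨g', hg', ?_⟩
        show x ^ (k + m) * g' * (x ^ (k + m))⁻¹ = x ^ k * (x ^ m * g' * (x ^ m)⁻¹) * (x ^ k)⁻¹
        rw [pow_add]; group
    rw [← h3, ← heq, h2]
  have hcomm : ∀ k l, k < r → l < r → Commute (a k) (a l) := by
    have key : ∀ k l, k < l → l < r → Commute (a k) (a l) := by
      intro k l hkl hl
      have h1 := component_le_centralizer_of_ne (hKcomp k) (hKcomp l) (hdist k l hkl (by omega))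
      have h2 := h1 (haK k)
      rw [mem_centralizer_iff] at h2
      exact (h2 (a l) (haK l)).symm
    intro k l hk hl
    rcases lt_trichotomy k l with h1 | h1 | h1
    · exact key k l h1 hl
    · rw [h1]
    · exact (key l k h1 hk).symm
  -- the product
  set j := ((List.range r).map a).prod with hj
  have hjsq : j * j = 1 := by
    apply list_sq
    · intro b hb
      obtain ⟨k, -, rfl⟩ := List.mem_map.mp hb
      exact hsq k
    · intro b hb c hc
      obtain ⟨k, hk, rfl⟩ := List.mem_map.mp hb
      obtain ⟨l, hl, rfl⟩ := List.mem_map.mp hc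
      exact hcomm k l (List.mem_range.mp hk) (List.mem_range.mp hl)
  obtain ⟨s, rfl⟩ : ∃ s, r = s + 1 := ⟨r - 1, by have := hr.pos; omega⟩
  -- `j = i * (product of the others)`
  have hj1 : j = i * ((List.range s).map (fun k => a (k + 1))).prod := by
    rw [hj, List.range_succ_eq_map, List.map_cons, List.prod_cons, List.map_map, ha0]
    rfl
  have hothers : ∀ g ∈ K, Commute g ((List.range s).map (fun k => a (k + 1))).prod := by
    intro g hg
    apply Commute.list_prod_right
    intro b hb
    obtain ⟨k, hk, rfl⟩ := List.mem_map.mp hb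
    have hk' := List.mem_range.mp hk
    have h1 : Kc (k + 1) ≠ K := hmv _ (by
      intro hd
      have := Nat.le_of_dvd (by omega) hd
      omega)
    have h2 := component_le_centralizer_of_ne (hKcomp (k + 1)) hK h1
    have h3 := h2 (haK (k + 1))
    rw [mem_centralizer_iff] at h3
    exact h3 g hg
  have hjne : j ≠ 1 := by
    intro h0
    rw [hj1] at h0
    have h1 : i = (((List.range s).map (fun k => a (k + 1))).prod)⁻¹ :=
      eq_inv_of_mul_eq_one_left h0
    have h2 : (⟨i, hiK⟩ : K) ∈ center K := by
      rw [mem_center_iff]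
      intro g
      apply Subtype.ext
      show (g : X) * i = i * g
      rw [h1]
      exact (hothers g g.2).inv_right.eq
    rw [center_component_eq_bot h hK, mem_bot] at h2
    exact hi1 (congrArg Subtype.val h2)
  have hxj : x * j * x⁻¹ = j := by
    have h1 : x * j * x⁻¹ = ((List.range (s + 1)).map (fun k => a (k + 1))).prod := by
      have h2 : x * j * x⁻¹ = (MulAut.conj x).toMonoidHom j := rfl
      rw [h2, hj, map_list_prod, List.map_map]
      congr 1
      apply List.map_congr_left
      intro k _
      show x * (x ^ k * i * (x ^ k)⁻¹) * x⁻¹ = x ^ (k + 1) * i * (x ^ (k + 1))⁻¹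
      rw [pow_succ']; group
    rw [h1, List.range_succ, List.map_append, List.prod_append, List.map_singleton,
      List.prod_singleton, har, hj1]
    exact ((hothers i hiK).eq).symm
  refine ⟨j, orderOf_eq_prime (p := 2) (by rw [pow_two]; exact hjsq) hjne, ?_⟩
  exact mul_inv_eq_iff_eq_mul.mp hxj

end Cfsg.Agent.H497
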