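import Mathlib
import Cfsg.Prelude.Def_Solvable
import Cfsg.Agent.H497.Basic
import Cfsg.Agent.H497.DihedralTwo
import Cfsg.Agent.S0017
import Cfsg.Agent.Lib.Cores
import Cfsg.Agent.Solvable.UniqueOrderP

/-!
Finite `{2, q}`-groups without elements of order `2q` and with `O_q ≠ 1`.
-/

set_option autoImplicit false

open scoped commutatorElement

namespace Cfsg.Agent.H497

open Subgroup Cfsg

/-- A fixed-point-free involution inverts. -/
theorem inverts {G : Type*} [Group G] (V : Subgroup G) [Finite V] {a : G} (ha : a * a = 1)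
    (hn : ∀ v ∈ V, a * v * a⁻¹ ∈ V) (hfpf : ∀ v ∈ V, a * v = v * a → v = 1) :
    ∀ v ∈ V, a * v * a⁻¹ = v⁻¹ := by
  intro v hv
  obtain ⟨u, hu, huv⟩ := DihedralTwo.surj V hn hfpf hv
  have ha' : a⁻¹ = a := inv_eq_of_mul_eq_one_left ha
  rw [huv]
  calc a * (u⁻¹ * (a * u * a⁻¹)) * a⁻¹ = (a * u * a⁻¹)⁻¹ * ((a * a) * u * (a * a)⁻¹) := by group
    _ = (a * u * a⁻¹)⁻¹ * u := by rw [ha]; group
    _ = (u⁻¹ * (a * u * a⁻¹))⁻¹ := by group

/-- A group inverted by an element is abelian. -/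
theorem comm_of_inverts {G : Type*} [Group G] (V : Subgroup G) {a : G}
    (h : ∀ v ∈ V, a * v * a⁻¹ = v⁻¹) : ∀ x ∈ V, ∀ y ∈ V, x * y = y * x := by
  intro x hx y hy
  have h1 := h _ (V.mul_mem hx hy)
  have h2 : a * (x * y) * a⁻¹ = (a * x * a⁻¹) * (a * y * a⁻¹) := by group
  rw [h2, h x hx, h y hy, mul_inv_rev] at h1
  have := congrArg (fun z => z⁻¹) h1
  simp only [mul_inv_rev, inv_inv] at this
  exact this.symm

theorem pPrimeCore_eq_bot {G : Type*} [Group G] [Finite G] {p q : ℕ} (hp : p.Prime) (hq : q.Prime)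
    (hpq : p ≠ q) (hπ : ∀ r : ℕ, r.Prime → r ∣ Nat.card G → r = p ∨ r = q)
    (hno : ∀ g : G, orderOf g ≠ p * q) (hM : pCore q G ≠ ⊥) : pPrimeCore q G = ⊥ := by
  have : Fact q.Prime := ⟨hq⟩
  rw [eq_bot_iff]
  intro k hk
  by_contra hk1
  rw [mem_bot] at hk1
  have hcop := Cfsg.Agent.Lib.Cores.pPrimeCore_coprime (G := G) q
  have hord : p ∣ orderOf k := by
    have h1 : orderOf k ≠ 1 := by rwa [Ne, orderOf_eq_one_iff]
    obtain ⟨r, hr, hrd⟩ := Nat.exists_prime_and_dvd h1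
    rcases hπ r hr (hrd.trans (orderOf_dvd_natCard k)) with rfl | rfl
    · exact hrd
    · exfalso
      have h2 : orderOf k ∣ Nat.card (pPrimeCore r G) := by
        have := orderOf_dvd_natCard (⟨k, hk⟩ : pPrimeCore r G)
        rwa [← Subgroup.orderOf_coe] at this
      have h3 := Nat.Coprime.coprime_dvd_left (hrd.trans h2) hcop
      rw [Nat.coprime_self] at h3
      exact hr.one_lt.ne' h3
  obtain ⟨⟨v, hv⟩, hv1'⟩ := Subgroup.ne_bot_iff_exists_ne_one.mp hM
  have hv1 : v ≠ 1 := fun h0 => hv1' (Subtype.ext h0)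
  have hdis : Disjoint (pPrimeCore q G) (pCore q G) := by
    rw [disjoint_iff, inf_comm]
    exact Cfsg.Agent.Lib.Cores.pCore_inf_pPrimeCore q
  have hcom : Commute k v := Subgroup.commute_of_normal_of_disjoint _ _
    (Cfsg.Agent.Lib.Cores.pPrimeCore_normal q) (Cfsg.Agent.Lib.Cores.pCore_normal q) hdis k v hk hv
  exact hv1 (eq_one_of_commute hp hq hpq hno hcom hord (Cfsg.Agent.Lib.Cores.pCore_isPGroup q) hv)

section
variable {G : Type*} [Group G] [Finite G] {q : ℕ}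

/-- Involutions invert `q`-subgroups they normalize. -/
theorem involution_inverts (hq : q.Prime) (hq2 : q ≠ 2) (hno : ∀ g : G, orderOf g ≠ 2 * q)
    {V : Subgroup G} (hV : IsPGroup q V) {z : G} (hz : orderOf z = 2)
    (hn : ∀ v ∈ V, z * v * z⁻¹ ∈ V) : ∀ v ∈ V, z * v * z⁻¹ = v⁻¹ := by
  apply inverts V _ hn
  · intro v hv hc
    exact eq_one_of_commute Nat.prime_two hq (Ne.symm hq2) hno (a := z) (b := v) hc
      (by rw [hz]) hV hv
  · have := pow_orderOf_eq_one z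
    rwa [hz, pow_two] at this

theorem mem_core_of_qElement (hq : q.Prime) (hq2 : q ≠ 2)
    (hπ : ∀ r : ℕ, r.Prime → r ∣ Nat.card G → r = 2 ∨ r = q) (h2 : 2 ∣ Nat.card G)
    (hno : ∀ g : G, orderOf g ≠ 2 * q) (hM : pCore q G ≠ ⊥) {x : G}
    (hx : IsPGroup q (zpowers x)) : x ∈ pCore q G := by
  have fq : Fact q.Prime := ⟨hq⟩
  have hsol : Group.IsSolvable G := isSolvable_of_two_primes Nat.prime_two hq (Ne.symm hq2) hπ
  have hcent := Cfsg.Agent.S0017.result (G := G) q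
    (pPrimeCore_eq_bot Nat.prime_two hq (Ne.symm hq2) hπ hno hM)
  obtain ⟨z, hz⟩ := exists_prime_orderOf_dvd_card' (G := G) 2 h2
  have hMn : (pCore q G).Normal := Cfsg.Agent.Lib.Cores.pCore_normal q
  have hMp : IsPGroup q (pCore q G) := Cfsg.Agent.Lib.Cores.pCore_isPGroup q
  have hzM := involution_inverts hq hq2 hno hMp hz (fun v hv => hMn.conj_mem v hv z)
  -- `⁅z, x⁆` centralizes `M`
  have hcomm : ⁅z, x⁆ ∈ pCore q G := by
    apply hcent
    rw [mem_centralizer_iff]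
    intro m hm
    have h1 : x * z⁻¹ * x⁻¹ * m * (x * z⁻¹ * x⁻¹)⁻¹ = m⁻¹ := by
      have hm' : x⁻¹ * m * x ∈ pCore q G := by
        have := hMn.conj_mem m hm x⁻¹
        rwa [inv_inv] at this
      have h2 : z⁻¹ * (x⁻¹ * m * x) * z = (x⁻¹ * m * x)⁻¹ := by
        have h3 := hzM _ ((pCore q G).inv_mem hm')
        rw [inv_inv] at h3
        set w := x⁻¹ * m * x
        calc z⁻¹ * w * z = z⁻¹ * (z * w⁻¹ * z⁻¹) * z := by rw [h3]
          _ = w⁻¹ := by group
      calc x * z⁻¹ * x⁻¹ * m * (x * z⁻¹ * x⁻¹)⁻¹ = x * (z⁻¹ * (x⁻¹ * m * x) * z) * x⁻¹ := by group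
        _ = m⁻¹ := by rw [h2]; group
    have h4 : ⁅z, x⁆ * m * ⁅z, x⁆⁻¹ = m := by
      calc ⁅z, x⁆ * m * ⁅z, x⁆⁻¹ =
          z * (x * z⁻¹ * x⁻¹ * m * (x * z⁻¹ * x⁻¹)⁻¹) * z⁻¹ := by
            simp only [commutatorElement_def]; group
        _ = m := by rw [h1, hzM _ ((pCore q G).inv_mem hm), inv_inv]
    exact (mul_inv_eq_iff_eq_mul.mp h4).symm
  -- the `q`-group `L = M⟨x⟩`
  set L := pCore q G ⊔ zpowers x with hL
  have hLp : IsPGroup q L := IsPGroup.to_sup_of_normal_left hMp hx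
  have hxL : x ∈ L := mem_sup_right (mem_zpowers x)
  have hnL : ∀ v ∈ L, z * v * z⁻¹ ∈ L := by
    have : L ≤ L.comap (MulAut.conj z).toMonoidHom := by
      conv_lhs => rw [hL]
      refine sup_le ?_ ?_
      · intro m hm
        exact mem_sup_left (hMn.conj_mem m hm z)
      · rw [zpowers_le]
        show z * x * z⁻¹ ∈ L
        have e : z * x * z⁻¹ = ⁅z, x⁆ * x := by simp only [commutatorElement_def]; group
        rw [e]
        exact L.mul_mem (mem_sup_left hcomm) hxL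
    intro v hv
    exact this hv
  have h5 := involution_inverts hq hq2 hno hLp hz hnL x hxL
  have h6 : x * x ∈ pCore q G := by
    have e : ⁅z, x⁆ = (x * x)⁻¹ := by
      calc ⁅z, x⁆ = z * x * z⁻¹ * x⁻¹ := by simp only [commutatorElement_def]
        _ = (x * x)⁻¹ := by rw [h5]; group
    rw [e] at hcomm
    exact (inv_mem_iff).mp hcomm
  -- `x` is a power of `x²`
  obtain ⟨k, hk⟩ := hx.exists_orderOf_eq_pow ⟨x, mem_zpowers x⟩
  rw [← Subgroup.orderOf_coe] at hk
  have hcop : (2 : ℕ).Coprime (orderOf x) := by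
    have : orderOf x = q ^ k := hk
    rw [this]
    exact Nat.Coprime.pow_right _ ((Nat.coprime_primes Nat.prime_two hq).mpr (Ne.symm hq2))
  obtain ⟨m, hm⟩ := exists_pow_eq_self_of_coprime hcop
  rw [← hm, pow_two]
  exact pow_mem h6 m

theorem isPGroup_quotient (hq : q.Prime) (hq2 : q ≠ 2)
    (hπ : ∀ r : ℕ, r.Prime → r ∣ Nat.card G → r = 2 ∨ r = q) (h2 : 2 ∣ Nat.card G)
    (hno : ∀ g : G, orderOf g ≠ 2 * q) (hM : pCore q G ≠ ⊥) (Q : Sylow q G) :
    (Q : Subgroup G) = pCore q G := by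
  have fq : Fact q.Prime := ⟨hq⟩
  apply le_antisymm
  · intro x hx
    apply mem_core_of_qElement hq hq2 hπ h2 hno hM
    have hle : zpowers x ≤ (Q : Subgroup G) := by rwa [zpowers_le]
    exact Q.2.to_le hle
  · exact Cfsg.Agent.Lib.Cores.pCore_le_sylow Q

theorem core_comm (hq : q.Prime) (hq2 : q ≠ 2) (h2 : 2 ∣ Nat.card G)
    (hno : ∀ g : G, orderOf g ≠ 2 * q) :
    ∀ x ∈ pCore q G, ∀ y ∈ pCore q G, x * y = y * x := by
  have fq : Fact q.Prime := ⟨hq⟩
  obtain ⟨z, hz⟩ := exists_prime_orderOf_dvd_card' (G := G) 2 h2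
  have hMn : (pCore q G).Normal := Cfsg.Agent.Lib.Cores.pCore_normal q
  exact comm_of_inverts _ (involution_inverts hq hq2 hno
    (Cfsg.Agent.Lib.Cores.pCore_isPGroup q) hz (fun v hv => hMn.conj_mem v hv z))

open Cfsg.Agent.Solvable.UniqueOrderP in
/-- A 2-group acting on a nontrivial normal `q`-group has a unique involution. -/
theorem uniqueP_two (hq : q.Prime) (hq2 : q ≠ 2) (hno : ∀ g : G, orderOf g ≠ 2 * q)
    {V : Subgroup G} (hVn : V.Normal) (hV : IsPGroup q V) (hV1 : V ≠ ⊥) {T : Subgroup G}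
    (hT : IsPGroup 2 T) : UniqueP 2 T := by
  intro x y hx hx2 hy2
  by_cases hy : y = 1
  · rw [hy]; exact one_mem _
  have key : ∀ w : T, w ≠ 1 → w ^ 2 = 1 → ∀ v ∈ V, (w : G) * v * (w : G)⁻¹ = v⁻¹ := by
    intro w hw hw2
    apply involution_inverts hq hq2 hno hV _ (fun v hv => hVn.conj_mem v hv _)
    exact orderOf_eq_prime (p := 2) (congrArg Subtype.val hw2) (fun h0 => hw (Subtype.ext h0))
  have h1 := key x hx hx2
  have h2 := key y hy hy2
  have h3 : x * y = 1 := by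
    by_contra hne
    have f2 : Fact (Nat.Prime 2) := ⟨Nat.prime_two⟩
    have h4 : 2 ∣ orderOf ((x * y : T) : G) := by
      have := hT.dvd_orderOf hne
      rwa [← Subgroup.orderOf_coe] at this
    obtain ⟨⟨v, hv⟩, hv1'⟩ := Subgroup.ne_bot_iff_exists_ne_one.mp hV1
    have hv1 : v ≠ 1 := fun h0 => hv1' (Subtype.ext h0)
    have h5 : Commute ((x * y : T) : G) v := by
      have e : (x : G) * y * v * ((x : G) * y)⁻¹ = v := by
        calc (x : G) * y * v * ((x : G) * y)⁻¹ = x * (y * v * (y : G)⁻¹) * (x : G)⁻¹ := by group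
          _ = v := by rw [h2 v hv, h1 _ (V.inv_mem hv), inv_inv]
      exact mul_inv_eq_iff_eq_mul.mp e
    exact hv1 (eq_one_of_commute Nat.prime_two hq (Ne.symm hq2) hno h5 h4 hV hv)
  have h4 : y = x⁻¹ := (inv_eq_of_mul_eq_one_right h3).symm
  rw [h4]
  exact inv_mem (mem_zpowers x)

/-- A Sylow 2-subgroup is isomorphic to the quotient by the normal Sylow `q`-subgroup. -/
theorem sylow_equiv_quotient (hq : q.Prime) (hq2 : q ≠ 2)
    (hπ : ∀ r : ℕ, r.Prime → r ∣ Nat.card G → r = 2 ∨ r = q) (N : Subgroup G) [N.Normal]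
    (Q : Sylow q G) (hQN : (Q : Subgroup G) = N) (T : Sylow 2 G) :
    Nonempty (T ≃* G ⧸ N) := by
  have fq : Fact q.Prime := ⟨hq⟩
  have f2 : Fact (Nat.Prime 2) := ⟨Nat.prime_two⟩
  obtain ⟨a, b, hab⟩ := exists_card_eq (p := 2) (q := q) (Ne.symm hq2) hπ
  have hne : Nat.factorization (2 ^ a * q ^ b) 2 = a ∧ Nat.factorization (2 ^ a * q ^ b) q = b := by
    have h2 := Nat.prime_two
    rw [Nat.factorization_mul (by positivity) (pow_pos hq.pos _).ne', h2.factorization_pow,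
      hq.factorization_pow]
    constructor
    · simp [hq2]
    · simp [Ne.symm hq2]
  have hcardT : Nat.card T = 2 ^ a := by
    rw [T.card_eq_multiplicity, hab, hne.1]
  have hcardQ : Nat.card (Q : Subgroup G) = q ^ b := by
    have := Q.card_eq_multiplicity
    rw [hab, hne.2] at this
    exact this
  have hinj : Function.Injective ((QuotientGroup.mk' N).comp (T : Subgroup G).subtype) := by
    rw [injective_iff_map_eq_one]
    intro t ht
    have h1 : (t : G) ∈ N := by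
      rw [← QuotientGroup.eq_one_iff]; exact ht
    have h2 : (T : Subgroup G) ⊓ N = ⊥ := by
      rw [← hQN]
      exact IsPGroup.disjoint_of_ne 2 q (Ne.symm hq2) _ _ T.2 Q.2 |>.eq_bot
    have h3 : (t : G) ∈ (T : Subgroup G) ⊓ N := ⟨t.2, h1⟩
    rw [h2, mem_bot] at h3
    exact Subtype.ext h3
  have hcard : Nat.card T = Nat.card (G ⧸ N) := by
    have h1 := N.card_mul_index
    rw [← hQN, hcardQ, hab, mul_comm] at h1
    have h2 := Nat.eq_of_mul_eq_mul_right (pow_pos hq.pos b) h1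
    rw [hcardT, ← h2, ← Subgroup.index_eq_card, hQN]
  exact ⟨MulEquiv.ofBijective ((QuotientGroup.mk' N).comp (T : Subgroup G).subtype)
    ((Nat.bijective_iff_injective_and_card _).mpr ⟨hinj, hcard⟩)⟩

end

end Cfsg.Agent.H497
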