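import Mathlib
import Cfsg.Agent.H497.Frob
import Cfsg.Agent.H497.TwoQ

/-!
Finite groups all of whose elements have order at most six: basic facts, and the use of lemma F.
-/

set_option autoImplicit false

namespace Cfsg.Agent.H497.Six

open Subgroup Cfsg Cfsg.Agent.H497

section
variable {G : Type*} [Group G] [Finite G]

omit [Finite G] in
theorem ne_of_gt (h : ∀ g : G, orderOf g ≤ 6) {n : ℕ} (hn : 6 < n) : ∀ g : G, orderOf g ≠ n :=
  fun g hg => absurd (h g) (by omega)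

omit [Finite G] in
theorem pow_eq_one (h : ∀ g : G, orderOf g ≤ 6) {p n : ℕ}
    (hpn : (p = 2 ∧ n = 4) ∨ (p = 3 ∧ n = 3) ∨ (p = 5 ∧ n = 5)) {A : Subgroup G} (hA : IsPGroup p A)
    {x : G} (hx : x ∈ A) : x ^ n = 1 := by
  have hp : p.Prime := by
    rcases hpn with ⟨rfl, -⟩ | ⟨rfl, -⟩ | ⟨rfl, -⟩ <;> norm_num
  have : Fact p.Prime := ⟨hp⟩
  obtain ⟨k, hk⟩ := hA ⟨x, hx⟩
  have hk' : x ^ (p ^ k) = 1 := congrArg Subtype.val hk
  obtain ⟨j, -, hj⟩ := (Nat.dvd_prime_pow hp).mp (orderOf_dvd_of_pow_eq_one hk')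
  have h6 := h x
  rw [← orderOf_dvd_iff_pow_eq_one, hj]
  rw [hj] at h6
  rcases hpn with ⟨rfl, rfl⟩ | ⟨rfl, rfl⟩ | ⟨rfl, rfl⟩
  · have : j < 3 := by
      by_contra hj3
      have := Nat.pow_le_pow_right (show 0 < 2 by norm_num) (show 3 ≤ j by omega)
      omega
    exact pow_dvd_pow 2 (show j ≤ 2 by omega)
  · have : j < 2 := by
      by_contra hj3
      have := Nat.pow_le_pow_right (show 0 < 3 by norm_num) (show 2 ≤ j by omega)
      omega
    exact pow_dvd_pow 3 (show j ≤ 1 by omega)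
  · have : j < 2 := by
      by_contra hj3
      have := Nat.pow_le_pow_right (show 0 < 5 by norm_num) (show 2 ≤ j by omega)
      omega
    exact pow_dvd_pow 5 (show j ≤ 1 by omega)

theorem prime_dvd (h : ∀ g : G, orderOf g ≤ 6) {r : ℕ} (hr : r.Prime) (hd : r ∣ Nat.card G) :
    r = 2 ∨ r = 3 ∨ r = 5 := by
  have : Fact r.Prime := ⟨hr⟩
  obtain ⟨g, hg⟩ := exists_prime_orderOf_dvd_card' (G := G) r hd
  have h1 := h g
  rw [hg] at h1
  interval_cases r <;> simp_all (config := { decide := true })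

theorem quotient (h : ∀ g : G, orderOf g ≤ 6) (N : Subgroup G) [N.Normal] :
    ∀ x : G ⧸ N, orderOf x ≤ 6 := by
  intro x
  obtain ⟨g, rfl⟩ := QuotientGroup.mk'_surjective N x
  exact (Nat.le_of_dvd (orderOf_pos g) (orderOf_map_dvd _ _)).trans (h g)

omit [Finite G] in
theorem subgroup (h : ∀ g : G, orderOf g ≤ 6) (H : Subgroup G) : ∀ x : H, orderOf x ≤ 6 := by
  intro x
  rw [← Subgroup.orderOf_coe]
  exact h x

/-- elements commuting with a nontrivial `2`- or `3`-element have order prime to five -/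
theorem not_comm_five (h : ∀ g : G, orderOf g ≤ 6) {a b : G} (hab : Commute a b)
    (h5 : 5 ∣ orderOf a) {r : ℕ} (hr : r.Prime) (hr5 : r ≠ 5) (hb : r ∣ orderOf b) : False := by
  obtain ⟨g, hg⟩ := exists_orderOf_mul (by norm_num : (5 : ℕ).Prime) hr hr5.symm hab
    (orderOf_pos a).ne' (orderOf_pos b).ne' h5 hb
  have := h g
  have := hr.two_le
  omega

/-- the conjugation action of `G ⧸ N` on a normal subgroup centralized by `N` -/
noncomputable def act (N V : Subgroup G) [N.Normal] [V.Normal] (hNV : N ≤ centralizer (V : Set G)) :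
    G ⧸ N →* MulAut V :=
  QuotientGroup.lift N (MulAut.conjNormal (H := V)) (by
    intro n hn
    ext v
    rw [MulAut.conjNormal_apply, MulAut.one_apply]
    have := mem_centralizer_iff.mp (hNV hn) v v.2
    rw [← this]
    group)

omit [Finite G] in
theorem act_mk (N V : Subgroup G) [N.Normal] [V.Normal] (hNV : N ≤ centralizer (V : Set G))
    (g : G) (v : V) : ((act N V hNV (QuotientGroup.mk' N g) v : V) : G) = g * v * g⁻¹ := rfl

omit [Finite G] in
theorem act_prod (N V : Subgroup G) [N.Normal] [V.Normal] (hNV : N ≤ centralizer (V : Set G))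
    (g : G) (v : V) (n : ℕ) :
    ((((List.range n).map (fun j => act N V hNV ((QuotientGroup.mk' N g) ^ j) v)).prod : V) : G) =
      ((List.range n).map (fun j => g ^ j * (v : G) * (g ^ j)⁻¹)).prod := by
  rw [SubmonoidClass.coe_list_prod, List.map_map]
  congr 1

/-- **The use of lemma F** -/
theorem noFrob (h : ∀ g : G, orderOf g ≤ 6) (N V : Subgroup G) [N.Normal] [V.Normal] {p n : ℕ}
    (hpn : (p = 2 ∧ n = 4) ∨ (p = 3 ∧ n = 3)) (hVp : IsPGroup p V)
    (hVc : ∀ a ∈ V, ∀ b ∈ V, a * b = b * a) (hV : V ≠ ⊥) (hNV : N ≤ centralizer (V : Set G))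
    (hrad : ∀ M : Subgroup (G ⧸ N), M.Normal → M ≠ ⊥ → 5 ∣ Nat.card M)
    {K : Type*} [Group K] (ψ : K →* G ⧸ N) (hψ : Function.Injective ψ) (E : Subgroup K) (hE : E ≠ ⊥)
    {q : ℕ} (hq : q.Prime) (hqp : q ≠ p) (hEq : IsPGroup q E) (y : K) (hy4 : y ^ n = 1)
    (hy : ∀ e ∈ E, y * e * y⁻¹ ∈ E)
    (hfpf : ∀ j, 0 < j → j < n → ∀ e ∈ E, y ^ j * e = e * y ^ j → e = 1) : False := by
  have hp : p.Prime := by
    rcases hpn with ⟨rfl, -⟩ | ⟨rfl, -⟩ <;> norm_num
  have fp : Fact p.Prime := ⟨hp⟩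
  have fq : Fact q.Prime := ⟨hq⟩
  have hn0 : 0 < n := by rcases hpn with ⟨-, rfl⟩ | ⟨-, rfl⟩ <;> norm_num
  have hna : ∃ a, n = p ^ a := by
    rcases hpn with ⟨rfl, rfl⟩ | ⟨rfl, rfl⟩
    · exact ⟨2, rfl⟩
    · exact ⟨1, rfl⟩
  obtain ⟨a, hna⟩ := hna
  obtain ⟨g, hgy, hgp⟩ := exists_lift_pElement N hp (ψ y) a (by
    rw [← map_pow, ← hna, hy4, map_one])
  have hLp : IsPGroup p (V ⊔ zpowers g : Subgroup G) := IsPGroup.to_sup_of_normal_left hVp hgp
  have hpow : ∀ v ∈ V, (v * g) ^ n = 1 := fun v hv =>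
    pow_eq_one h (by rcases hpn with h1 | h1; exacts [Or.inl h1, Or.inr (Or.inl h1)]) hLp
      (mul_mem (mem_sup_left hv) (mem_sup_right (mem_zpowers g)))
  have hgn : g ^ n = 1 := by
    have := hpow 1 (one_mem V)
    rwa [one_mul] at this
  have hVc' : ∀ a b : V, a * b = b * a := fun a b => Subtype.ext (hVc a a.2 b b.2)
  have hfin : Finite E := Finite.of_injective (fun e : E => ψ e)
    (fun a b hab => Subtype.ext (hψ hab))
  have hfin' : Finite (E.map ψ) := inferInstance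
  have htriv : ∀ e ∈ E.map ψ, ∀ v : V, act N V hNV e v = v := by
    apply lemmaF hVc' (act N V hNV) (E.map ψ) (ψ y) n hn0
    · rintro _ ⟨e, he, rfl⟩
      exact ⟨_, hy e he, by rw [map_mul, map_mul, map_inv]⟩
    · rintro j hj hjn _ ⟨e, he, rfl⟩ hc
      rw [hfpf j hj hjn e he (hψ (by rw [map_mul, map_mul, map_pow]; exact hc)), map_one]
    · intro v
      apply Subtype.ext
      rw [← hgy, act_prod]
      have h1 := mul_pow_eq_prod (v : G) g n
      rw [hpow v v.2, hgn, mul_one] at h1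
      exact h1.symm
    · obtain ⟨b, hb⟩ := (IsPGroup.iff_card).mp hVp
      obtain ⟨c, hc⟩ := (IsPGroup.iff_card).mp (hEq.map ψ)
      rw [hb, hc]
      exact Nat.Coprime.pow _ _ ((Nat.coprime_primes hp hq).mpr hqp.symm)
  -- the kernel
  set M := (act N V hNV).ker with hM
  have hM1 : M ≠ ⊥ := by
    obtain ⟨⟨e, he⟩, he1⟩ := Subgroup.ne_bot_iff_exists_ne_one.mp hE
    intro hbot
    have h1 : ψ e ∈ M := by
      rw [hM, MonoidHom.mem_ker]
      ext v
      exact congrArg Subtype.val (htriv (ψ e) ⟨e, he, rfl⟩ v)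
    rw [hbot, mem_bot] at h1
    apply he1
    apply Subtype.ext
    exact hψ (by rw [h1, Subgroup.coe_one, map_one])
  have h5 := hrad M inferInstance hM1
  have f5 : Fact (Nat.Prime 5) := ⟨by norm_num⟩
  obtain ⟨⟨x, hx⟩, hx5⟩ := exists_prime_orderOf_dvd_card' (G := M) 5 h5
  rw [← Subgroup.orderOf_coe] at hx5
  obtain ⟨w, rfl⟩ := QuotientGroup.mk'_surjective N x
  have hw5 : 5 ∣ orderOf w := by
    have h1 : orderOf (QuotientGroup.mk' N w) ∣ orderOf w := orderOf_map_dvd _ _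
    rw [show orderOf (QuotientGroup.mk' N w) = 5 from hx5] at h1
    exact h1
  obtain ⟨v, hv1⟩ := Subgroup.ne_bot_iff_exists_ne_one.mp hV
  have hvp : p ∣ orderOf (v : G) := by
    have := hVp.dvd_orderOf hv1
    rwa [← Subgroup.orderOf_coe] at this
  have hcom : Commute w (v : G) := by
    rw [hM, MonoidHom.mem_ker] at hx
    have h1 : act N V hNV (QuotientGroup.mk' N w) v = v := by rw [hx]; rfl
    have h2 : w * v * w⁻¹ = (v : G) := congrArg Subtype.val h1
    exact mul_inv_eq_iff_eq_mul.mp h2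
  exact not_comm_five h hcom hw5 hp (by rcases hpn with ⟨rfl, -⟩ | ⟨rfl, -⟩ <;> norm_num) hvp

end

end Cfsg.Agent.H497.Six
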