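import Mathlib
import Cfsg.Agent.H497.SixBasic
import Cfsg.Agent.Solvable.UniqueOrderP
import Cfsg.Agent.SylowG2.SLTwoThreeRecog
import Cfsg.Agent.Lib.DihedralRecog

/-!
Groups of order 12 or 24 with a unique involution.
-/

set_option autoImplicit false

namespace Cfsg.Agent.H497.Six

open Subgroup Cfsg Cfsg.Agent.H497

section
variable {H : Type*} [Group H] [Finite H]

/-- the order of a `{p, q}`-group is the product of the orders of its Sylow subgroups -/
theorem card_eq_sylow_mul {p q : ℕ} (hp : p.Prime) (hq : q.Prime) (hpq : p ≠ q)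
    (hπ : ∀ r : ℕ, r.Prime → r ∣ Nat.card H → r = p ∨ r = q) (T : Sylow p H) (Q : Sylow q H) :
    Nat.card H = Nat.card (T : Subgroup H) * Nat.card (Q : Subgroup H) := by
  have fp : Fact p.Prime := ⟨hp⟩
  have fq : Fact q.Prime := ⟨hq⟩
  obtain ⟨a, b, hab⟩ := exists_card_eq (p := p) (q := q) hpq hπ
  have hT := T.card_eq_multiplicity
  have hQ := Q.card_eq_multiplicity
  rw [hab, Nat.factorization_mul (pow_pos hp.pos _).ne' (pow_pos hq.pos _).ne',
    hp.factorization_pow, hq.factorization_pow] at hT hQ
  rw [hab]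
  have h1 : Nat.card (T : Subgroup H) = p ^ a := by
    rw [hT]; congr 1; simp [Ne.symm hpq]
  have h2 : Nat.card (Q : Subgroup H) = q ^ b := by
    rw [hQ]; congr 1; simp [hpq]
  rw [h1, h2]

/-- The Sylow 2-subgroup -/
theorem sylow_two (hle : ∀ g : H, orderOf g ≤ 6)
    (hu : ∀ x y : H, orderOf x = 2 → orderOf y = 2 → x = y) (T : Sylow 2 H)
    {g : H} (hgT : g ∈ (T : Subgroup H)) (hg : orderOf g = 4) :
    (Nat.card (T : Subgroup H) = 4) ∨
      (Nat.card (T : Subgroup H) = 8 ∧ Nonempty (T ≃* QuaternionGroup 2)) := by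
  have hUP : Cfsg.Agent.Solvable.UniqueOrderP.UniqueP 2 T := by
    intro x y hx hx2 hy2
    by_cases hy : y = 1
    · rw [hy]; exact one_mem _
    have h1 : orderOf (x : H) = 2 := orderOf_eq_prime (congrArg Subtype.val hx2)
      (fun h0 => hx (Subtype.ext h0))
    have h2 : orderOf (y : H) = 2 := orderOf_eq_prime (congrArg Subtype.val hy2)
      (fun h0 => hy (Subtype.ext h0))
    have h3 : x = y := Subtype.ext (hu _ _ h1 h2)
    rw [h3]; exact mem_zpowers y
  have hg4 : orderOf (⟨g, hgT⟩ : T) = 4 := by rw [← Subgroup.orderOf_coe]; exact hg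
  rcases Cfsg.Agent.Solvable.UniqueOrderP.cyclic_or_quaternion T.2 hUP with hc | ⟨-, m, hm, ⟨e⟩⟩
  · left
    obtain ⟨t, ht⟩ := hc.exists_generator
    have h1 := orderOf_eq_card_of_forall_mem_zpowers ht
    have h2 : orderOf t ≤ 6 := by rw [← Subgroup.orderOf_coe]; exact hle t
    have h3 : 4 ∣ Nat.card T := by rw [← hg4]; exact orderOf_dvd_natCard _
    have h4 : 0 < Nat.card T := Nat.card_pos
    change Nat.card T = 4
    omega
  · right
    have hm1 : m = 1 := by
      have fne : NeZero (2 ^ m) := ⟨by positivity⟩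
      have h1 := QuaternionGroup.orderOf_a_one (n := 2 ^ m)
      have h2 : orderOf (e.symm (QuaternionGroup.a 1)) = 2 * 2 ^ m := by
        rw [MulEquiv.orderOf_eq, h1]
      have h3 := hle (e.symm (QuaternionGroup.a 1) : T)
      rw [Subgroup.orderOf_coe, h2] at h3
      have h4 : m < 2 := by
        by_contra hm2
        have := Nat.pow_le_pow_right (show 0 < 2 by norm_num) (show 2 ≤ m by omega)
        omega
      omega
    subst hm1
    refine ⟨?_, ⟨e⟩⟩

    rw [Nat.card_congr e.toEquiv, Nat.card_eq_fintype_card, QuaternionGroup.card]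
    norm_num

/-- **Recognition** of the dicyclic group of order 12 and `SL(2,3)`. -/
theorem classify (hle : ∀ g : H, orderOf g ≤ 6)
    (hu : ∀ x y : H, orderOf x = 2 → orderOf y = 2 → x = y) (h4 : ∃ g : H, orderOf g = 4)
    (h3 : 3 ∣ Nat.card H) (h3' : ∀ P : Subgroup H, IsPGroup 3 P → Nat.card P ∣ 3)
    (h5 : ¬ 5 ∣ Nat.card H) :
    Nonempty (H ≃* QuaternionGroup 3) ∨
      Nonempty (H ≃* Matrix.SpecialLinearGroup (Fin 2) (ZMod 3)) := by
  have f2 : Fact (Nat.Prime 2) := ⟨by norm_num⟩
  have f3 : Fact (Nat.Prime 3) := ⟨by norm_num⟩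
  have hπ : ∀ r : ℕ, r.Prime → r ∣ Nat.card H → r = 2 ∨ r = 3 := by
    intro r hr hrd
    rcases prime_dvd hle hr hrd with h1 | h1 | rfl
    · exact Or.inl h1
    · exact Or.inr h1
    · exact absurd hrd h5
  obtain ⟨g, hg⟩ := h4
  have hgp : IsPGroup 2 (zpowers g) := by
    apply IsPGroup.of_card (n := 2)
    rw [Nat.card_zpowers, hg]; norm_num
  obtain ⟨T, hT⟩ := hgp.exists_le_sylow
  have hgT : g ∈ (T : Subgroup H) := hT (mem_zpowers g)
  have hTc := sylow_two hle hu T hgT hg
  obtain ⟨x, hx⟩ := exists_prime_orderOf_dvd_card' (G := H) 3 h3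
  have hxp : IsPGroup 3 (zpowers x) := by
    apply IsPGroup.of_card (n := 1)
    rw [Nat.card_zpowers, hx]; norm_num
  obtain ⟨P, hPx⟩ := hxp.exists_le_sylow
  have hPc : Nat.card (P : Subgroup H) = 3 := by
    have h1 := h3' _ P.2
    have h2 := Subgroup.card_dvd_of_le hPx
    rw [Nat.card_zpowers, hx] at h2
    exact Nat.dvd_antisymm h1 h2
  have hPz : (P : Subgroup H) = zpowers x := by
    symm
    apply Subgroup.eq_of_le_of_card_ge hPx
    rw [hPc, Nat.card_zpowers, hx]
  have hcard := card_eq_sylow_mul (by norm_num) (by norm_num) (by norm_num) hπ T P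
  rw [hPc] at hcard
  -- no element of order 12
  have hno12 : ∀ a : H, orderOf a = 4 → ¬ Commute a x := by
    intro a ha hc
    have h1 := hc.orderOf_mul_eq_mul_orderOf_of_coprime (by rw [ha, hx]; norm_num)
    have h2 := hle (a * x)
    rw [h1, ha, hx] at h2
    omega
  -- the involution
  set z := g * g with hz
  have hz2 : orderOf z = 2 := by
    rw [hz, ← pow_two, orderOf_pow' g (by norm_num), hg]; norm_num
  have hzc : ∀ a : H, a * z = z * a := by
    intro a
    have h1 : orderOf (a * z * a⁻¹) = 2 := by
      rw [← hz2]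
      exact orderOf_injective (MulAut.conj a).toMonoidHom (MulAut.conj a).injective z
    have h2 := hu _ _ h1 hz2
    exact mul_inv_eq_iff_eq_mul.mp h2
  have hsq : ∀ a : H, orderOf a = 4 → a * a = z := by
    intro a ha
    apply hu _ _ _ hz2
    rw [← pow_two, orderOf_pow' a (by norm_num), ha]; norm_num
  have hx3 : x ^ 3 = 1 := by rw [← hx, pow_orderOf_eq_one]
  have hxne : x ≠ x⁻¹ := by
    intro h0
    have h1 : x * x = 1 := by
      nth_rewrite 1 [h0]; group
    have h2 : orderOf x ∣ 2 := orderOf_dvd_of_pow_eq_one (by rw [pow_two]; exact h1)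
    rw [hx] at h2
    norm_num at h2
  have hxz : Commute x z := hzc x
  by_cases hinv : ∃ n : H, n * x * n⁻¹ = x⁻¹
  · obtain ⟨n, hn⟩ := hinv
    have hodd : ∀ a : H, a * x * a⁻¹ = x⁻¹ → (a * a) * x * (a * a)⁻¹ = x := by
      intro a ha
      calc (a * a) * x * (a * a)⁻¹ = a * (a * x * a⁻¹) * a⁻¹ := by group
        _ = a * x⁻¹ * a⁻¹ := by rw [ha]
        _ = (a * x * a⁻¹)⁻¹ := by group
        _ = x := by rw [ha, inv_inv]
    have hn4 : orderOf n = 4 := by
      have h1 := hle n
      have h2 := orderOf_pos n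
      have h3 : (n * n) * x * (n * n)⁻¹ = x := hodd n hn
      have hcub : (n * n * n) * x * (n * n * n)⁻¹ = x⁻¹ := by
        calc (n * n * n) * x * (n * n * n)⁻¹ = n * ((n * n) * x * (n * n)⁻¹) * n⁻¹ := by group
          _ = x⁻¹ := by rw [h3, hn]
      have h4 : orderOf n ≠ 1 := by
        intro h0
        rw [orderOf_eq_one_iff] at h0
        rw [h0] at hn
        apply hxne
        rw [← hn]; group
      have h5' : orderOf n ≠ 2 := by
        intro h0
        have h1 := hu _ _ h0 hz2
        rw [h1, ← hzc x] at hn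
        apply hxne
        rw [← hn]; group
      have h6 : orderOf n ≠ 3 := by
        intro h0
        have h1 := pow_orderOf_eq_one n
        rw [h0, pow_succ, pow_two] at h1
        rw [h1] at hcub
        apply hxne
        rw [← hcub]; group
      have h7 : orderOf n ≠ 5 := by
        intro h0
        exact h5 (by rw [← h0]; exact orderOf_dvd_natCard n)
      have h8 : orderOf n ≠ 6 := by
        intro h0
        have h1 : orderOf (n * n * n) = 2 := by
          have e1 : n * n * n = n ^ 3 := by rw [pow_succ, pow_two]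
          rw [e1, orderOf_pow' n (by norm_num), h0]; norm_num
        have h2 := hu _ _ h1 hz2
        rw [h2, ← hzc x] at hcub
        apply hxne
        rw [← hcub]; group
      omega
    have hnn := hsq n hn4
    -- generators
    have ha6 : orderOf (x * z) = 2 * 3 := by
      rw [hxz.orderOf_mul_eq_mul_orderOf_of_coprime (by rw [hx, hz2]; norm_num), hx, hz2]
    have hz2' : z * z = 1 := by
      have := pow_orderOf_eq_one z
      rwa [hz2, pow_two] at this
    have ha3 : n * n = (x * z) ^ 3 := by
      rw [hxz.mul_pow, hx3, one_mul, hnn, pow_succ, pow_two, hz2', one_mul]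
    have hna : n * (x * z) * n⁻¹ = (x * z)⁻¹ := by
      calc n * (x * z) * n⁻¹ = (n * x * n⁻¹) * (n * z * n⁻¹) := by group
        _ = x⁻¹ * z := by rw [hn, hzc n]; group
        _ = x⁻¹ * z⁻¹ := by rw [inv_eq_of_mul_eq_one_left hz2']
        _ = (x * z)⁻¹ := by rw [mul_inv_rev x z]; exact hxz.inv_inv.eq
    have hnz : n ∉ zpowers (x * z) := by
      intro hmem
      obtain ⟨k, hk⟩ := mem_zpowers_iff.mp hmem
      have h1 : Commute (x * z) x := (Commute.refl x).mul_left hxz.symm
      have h2 : Commute n x := by rw [← hk]; exact h1.zpow_left k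
      rw [h2.eq] at hn
      apply hxne
      rw [← hn]; group
    rcases hTc with hT4 | ⟨hT8, ⟨e⟩⟩
    · left
      exact Cfsg.Agent.Lib.DihedralRecog.quaternion_of_generators (m := 3) (by norm_num) (x * z) n
        ha6 ha3 hna hnz (by rw [hcard, hT4])
    · exfalso
      -- the normalizer of `P` has order divisible by 12
      obtain ⟨e12⟩ := Cfsg.Agent.Lib.DihedralRecog.closure_quaternion (m := 3) (x * z) n
        ha6 ha3 hna hnz
      have hD12 : Nat.card (closure {x * z, n}) = 12 := by
        rw [Nat.card_congr e12.toEquiv, Nat.card_eq_fintype_card, QuaternionGroup.card]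
      have hDN : closure {x * z, n} ≤ normalizer ((P : Subgroup H) : Set H) := by
        rw [closure_le]
        rintro w (rfl | rfl)
        · rw [SetLike.mem_coe, hPz]
          apply centralizer_le_normalizer
          rw [mem_centralizer_iff]
          intro y hy
          obtain ⟨k, rfl⟩ := mem_zpowers_iff.mp hy
          have h1 : Commute (x * z) x := (Commute.refl x).mul_left hxz.symm
          exact (h1.zpow_right k).symm
        · rw [SetLike.mem_coe, hPz, mem_normalizer_iff_map_conj_eq]
          rw [MonoidHom.map_zpowers]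
          have e1 : (MulAut.conj w) x = x⁻¹ := hn
          change zpowers ((MulAut.conj w) x) = zpowers x
          rw [e1, zpowers_inv]
      have hidx : (normalizer ((P : Subgroup H) : Set H)).index ∣ 2 := by
        have h1 := (normalizer ((P : Subgroup H) : Set H)).card_mul_index
        have h2 := Subgroup.card_dvd_of_le hDN
        rw [hD12] at h2
        obtain ⟨c, hc⟩ := h2
        rw [hcard, hT8, hc] at h1
        refine ⟨c, ?_⟩
        have : 12 * (c * (normalizer ((P : Subgroup H) : Set H)).index) = 12 * 2 := by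
          rw [← mul_assoc, h1]
        have h3 := Nat.eq_of_mul_eq_mul_left (by norm_num) this
        rw [← h3, mul_comm]
      have hmod := card_sylow_modEq_one 3 H
      rw [P.card_eq_index_normalizer] at hmod
      change (normalizer ((P : Subgroup H) : Set H)).index ≡ 1 [MOD 3] at hmod
      have hidx1 : (normalizer ((P : Subgroup H) : Set H)).index = 1 := by
        rcases (Nat.dvd_prime Nat.prime_two).mp hidx with h1 | h1
        · exact h1
        · rw [h1] at hmod
          exact absurd hmod (by decide)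
      have hPn : ∀ a : H, a * x * a⁻¹ = x ∨ a * x * a⁻¹ = x⁻¹ := by
        intro a
        rw [Subgroup.index_eq_one] at hidx1
        have h1 : a ∈ normalizer ((P : Subgroup H) : Set H) := by rw [hidx1]; exact mem_top a
        have h2 : a * x * a⁻¹ ∈ zpowers x := by
          rw [← hPz]
          exact (mem_normalizer_iff.mp h1 x).mp (hPx (mem_zpowers x))
        obtain ⟨k, hk⟩ := mem_zpowers_iff.mp h2
        have h3 : orderOf (a * x * a⁻¹) = 3 := by
          rw [← hx]
          exact orderOf_injective (MulAut.conj a).toMonoidHom (MulAut.conj a).injective x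
        have h4 : x ^ k = x ^ (k % 3) := by
          conv_lhs => rw [← Int.emod_add_mul_ediv k 3, zpow_add, zpow_mul]
          rw [show (x ^ (3 : ℤ)) = 1 by exact_mod_cast hx3, one_zpow, mul_one]
        have h5' : k % 3 = 0 ∨ k % 3 = 1 ∨ k % 3 = 2 := by omega
        rcases h5' with h6 | h6 | h6
        · exfalso
          rw [h4, h6, zpow_zero] at hk
          rw [← hk, orderOf_one] at h3
          norm_num at h3
        · left
          rw [← hk, h4, h6, zpow_one]
        · right
          rw [← hk, h4, h6]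
          rw [eq_inv_iff_mul_eq_one]
          have : x ^ (2 : ℤ) * x = x ^ 3 := by
            rw [zpow_ofNat, ← pow_succ]
          rw [this, hx3]
      -- two elements of order 4 with product of order 4
      have hord : ∀ w : QuaternionGroup 2, orderOf w = 4 → orderOf ((e.symm w : T) : H) = 4 := by
        intro w hw
        rw [Subgroup.orderOf_coe, MulEquiv.orderOf_eq, hw]
      have fne : NeZero (2 : ℕ) := ⟨by norm_num⟩
      have hi4 := hord (QuaternionGroup.a 1) (QuaternionGroup.orderOf_a_one (n := 2))
      have hj4 := hord (QuaternionGroup.xa 0) (QuaternionGroup.orderOf_xa 0)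
      have hk4 := hord (QuaternionGroup.a 1 * QuaternionGroup.xa 0) (by
        rw [QuaternionGroup.a_mul_xa]; exact QuaternionGroup.orderOf_xa _)
      rw [map_mul] at hk4
      set i := ((e.symm (QuaternionGroup.a 1) : T) : H)
      set j := ((e.symm (QuaternionGroup.xa 0) : T) : H)
      have hi : i * x * i⁻¹ = x⁻¹ := (hPn i).resolve_left
        (fun h0 => hno12 i hi4 (mul_inv_eq_iff_eq_mul.mp h0))
      have hj : j * x * j⁻¹ = x⁻¹ := (hPn j).resolve_left
        (fun h0 => hno12 j hj4 (mul_inv_eq_iff_eq_mul.mp h0))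
      apply hno12 (i * j) hk4
      have h1 : (i * j) * x * (i * j)⁻¹ = x := by
        calc (i * j) * x * (i * j)⁻¹ = i * (j * x * j⁻¹) * i⁻¹ := by group
          _ = i * x⁻¹ * i⁻¹ := by rw [hj]
          _ = (i * x * i⁻¹)⁻¹ := by group
          _ = x := by rw [hi, inv_inv]
      exact mul_inv_eq_iff_eq_mul.mp h1
  · -- `N(P) ≤ C(P)`
    have hNC : normalizer ((P : Subgroup H) : Set H) ≤ centralizer ((P : Subgroup H) : Set H) := by
      intro a ha
      have h2 : a * x * a⁻¹ ∈ zpowers x := by
        rw [← hPz]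
        exact (mem_normalizer_iff.mp ha x).mp (hPx (mem_zpowers x))
      obtain ⟨k, hk⟩ := mem_zpowers_iff.mp h2
      have h3 : orderOf (a * x * a⁻¹) = 3 := by
        rw [← hx]
        exact orderOf_injective (MulAut.conj a).toMonoidHom (MulAut.conj a).injective x
      have h4 : x ^ k = x ^ (k % 3) := by
        conv_lhs => rw [← Int.emod_add_mul_ediv k 3, zpow_add, zpow_mul]
        rw [show (x ^ (3 : ℤ)) = 1 by exact_mod_cast hx3, one_zpow, mul_one]
      have h5' : k % 3 = 0 ∨ k % 3 = 1 ∨ k % 3 = 2 := by omega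
      have h7 : a * x * a⁻¹ = x := by
        rcases h5' with h6 | h6 | h6
        · exfalso
          rw [h4, h6, zpow_zero] at hk
          rw [← hk, orderOf_one] at h3
          norm_num at h3
        · rw [← hk, h4, h6, zpow_one]
        · exfalso
          apply hinv
          refine ⟨a, ?_⟩
          rw [← hk, h4, h6]
          rw [eq_inv_iff_mul_eq_one]
          have : x ^ (2 : ℤ) * x = x ^ 3 := by
            rw [zpow_ofNat, ← pow_succ]
          rw [this, hx3]
      have h8 : Commute a x := mul_inv_eq_iff_eq_mul.mp h7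
      rw [mem_centralizer_iff]
      intro y hy
      rw [SetLike.mem_coe, hPz] at hy
      obtain ⟨k, rfl⟩ := mem_zpowers_iff.mp hy
      exact (h8.zpow_right k).symm
    have hcompl := MonoidHom.ker_transferSylow_isComplement' P hNC
    set K := (MonoidHom.transferSylow P hNC).ker with hK
    have hKn : K.Normal := inferInstance
    have hKcard : Nat.card K = Nat.card (T : Subgroup H) := by
      have h1 := hcompl.card_mul_card
      rw [hPc, hcard] at h1
      exact Nat.eq_of_mul_eq_mul_right (by norm_num) h1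
    obtain ⟨n2, hn2⟩ := (IsPGroup.iff_card).mp T.2
    have hKp : IsPGroup 2 K := by
      apply IsPGroup.of_card (n := n2)
      rw [hKcard]; exact hn2
    have hTn : (T : Subgroup H).Normal := by
      have h1 : K ≤ (T : Subgroup H) := by
        have h2 := Cfsg.Agent.Lib.Cores.le_pCore hKn hKp
        exact h2.trans (Cfsg.Agent.Lib.Cores.pCore_le_sylow T)
      have h2 : K = (T : Subgroup H) := Subgroup.eq_of_le_of_card_ge h1 hKcard.ge
      rw [← h2]; exact hKn
    rcases hTc with hT4 | ⟨hT8, he⟩
    · exfalso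
      have hTz : (T : Subgroup H) = zpowers g := by
        symm
        apply Subgroup.eq_of_le_of_card_ge (hT)
        rw [hT4, Nat.card_zpowers, hg]
      have h1 : x * g * x⁻¹ ∈ zpowers g := by rw [← hTz]; exact hTn.conj_mem g hgT x
      obtain ⟨k, hk⟩ := mem_zpowers_iff.mp h1
      have hg4 : g ^ 4 = 1 := by rw [← hg, pow_orderOf_eq_one]
      have h4 : g ^ k = g ^ (k % 4) := by
        conv_lhs => rw [← Int.emod_add_mul_ediv k 4, zpow_add, zpow_mul]
        rw [show (g ^ (4 : ℤ)) = 1 by exact_mod_cast hg4, one_zpow, mul_one]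
      have h3 : orderOf (x * g * x⁻¹) = 4 := by
        rw [← hg]
        exact orderOf_injective (MulAut.conj x).toMonoidHom (MulAut.conj x).injective g
      have h5' : k % 4 = 0 ∨ k % 4 = 1 ∨ k % 4 = 2 ∨ k % 4 = 3 := by omega
      rcases h5' with h6 | h6 | h6 | h6
      · rw [h4, h6, zpow_zero] at hk
        rw [← hk, orderOf_one] at h3
        norm_num at h3
      · rw [h4, h6, zpow_one] at hk
        exact hno12 g hg (mul_inv_eq_iff_eq_mul.mp hk.symm).symm
      · rw [h4, h6] at hk
        rw [← hk, zpow_ofNat, orderOf_pow' g (by norm_num), hg] at h3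
        norm_num at h3
      · have h7 : x * g * x⁻¹ = g⁻¹ := by
          rw [← hk, h4, h6, eq_inv_iff_mul_eq_one]
          have : g ^ (3 : ℤ) * g = g ^ 4 := by
            rw [zpow_ofNat, ← pow_succ]
          rw [this, hg4]
        have h8 : (x ^ 3) * g * (x ^ 3)⁻¹ = g⁻¹ := by
          calc (x ^ 3) * g * (x ^ 3)⁻¹ = x * (x * (x * g * x⁻¹) * x⁻¹) * x⁻¹ := by
                rw [pow_succ, pow_two]; group
            _ = x * (x * g⁻¹ * x⁻¹) * x⁻¹ := by rw [h7]
            _ = x * (x * g * x⁻¹)⁻¹ * x⁻¹ := by group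
            _ = x * g * x⁻¹ := by rw [h7, inv_inv]; exact h7
            _ = g⁻¹ := h7
        rw [hx3] at h8
        have h9 : g = g⁻¹ := by rw [← h8]; group
        have h10 : g * g = 1 := by
          nth_rewrite 1 [h9]; group
        rw [← hz] at h10
        rw [h10, orderOf_one] at hz2
        norm_num at hz2
    · right
      refine Cfsg.Agent.SylowG2.SLTwoThreeRecog.mulEquiv_of_quaternion (by rw [hcard, hT8])
        (T : Subgroup H) hTn he x hx ?_
      intro hc
      apply hno12 g hg
      exact mem_centralizer_iff.mp hc g hgT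

end

end Cfsg.Agent.H497.Six
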