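import Mathlib
import Cfsg.Agent.H497.SixOneH

/-!
Finite groups all of whose elements have order at most six: the case `O_5(G) ≠ 1`.
-/

set_option autoImplicit false

open scoped commutatorElement

namespace Cfsg.Agent.H497.Six

open Subgroup Cfsg Cfsg.Agent.H497

section
variable {G : Type*} [Group G] [Finite G]

/-- `q`-elements lie in `O_q(G)`. -/
theorem mem_core {q : ℕ} (hq : q.Prime) (hq2 : q ≠ 2) (h2 : 2 ∣ Nat.card G)
    (hno : ∀ g : G, orderOf g ≠ 2 * q)
    (hcent : centralizer (pCore q G : Set G) ≤ pCore q G) {x : G}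
    (hx : IsPGroup q (zpowers x)) : x ∈ pCore q G := by
  have fq : Fact q.Prime := ⟨hq⟩
  obtain ⟨z, hz⟩ := exists_prime_orderOf_dvd_card' (G := G) 2 h2
  have hMn : (pCore q G).Normal := Cfsg.Agent.Lib.Cores.pCore_normal q
  have hMp : IsPGroup q (pCore q G) := Cfsg.Agent.Lib.Cores.pCore_isPGroup q
  have hzM := involution_inverts hq hq2 hno hMp hz (fun v hv => hMn.conj_mem v hv z)
  -- `⁅z, x⁆` centralizes `M`
  have hcomm : ⁅z, x⁆ ∈ pCore q G := by
    apply hcent
    rw [mem_centralizer_iff]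
    intro m hm
    have h1 : x * z⁻¹ * x⁻¹ * m * (x * z⁻¹ * x⁻¹)⁻¹ = m⁻¹ := by
      have hm' : x⁻¹ * m * x ∈ pCore q G := by
        have := hMn.conj_mem m hm x⁻¹
        rwa [inv_inv] at this
      have h2 : z⁻¹ * (x⁻¹ * m * x) * z = (x⁻¹ * m * x)⁻¹ := by
        have h3 := hzM _ ((pCore q G).inv_mem hm')
        rw [inv_inv] at h3
        set w := x⁻¹ * m * x
        calc z⁻¹ * w * z = z⁻¹ * (z * w⁻¹ * z⁻¹) * z := by rw [h3]
          _ = w⁻¹ := by group
      calc x * z⁻¹ * x⁻¹ * m * (x * z⁻¹ * x⁻¹)⁻¹ = x * (z⁻¹ * (x⁻¹ * m * x) * z) * x⁻¹ := by group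
        _ = m⁻¹ := by rw [h2]; group
    have h4 : ⁅z, x⁆ * m * ⁅z, x⁆⁻¹ = m := by
      calc ⁅z, x⁆ * m * ⁅z, x⁆⁻¹ =
          z * (x * z⁻¹ * x⁻¹ * m * (x * z⁻¹ * x⁻¹)⁻¹) * z⁻¹ := by
            simp only [commutatorElement_def]; group
        _ = m := by rw [h1, hzM _ ((pCore q G).inv_mem hm), inv_inv]
    exact (mul_inv_eq_iff_eq_mul.mp h4).symm
  -- the `q`-group `L = M⟨x⟩`
  set L := pCore q G ⊔ zpowers x with hL
  have hLp : IsPGroup q L := IsPGroup.to_sup_of_normal_left hMp hx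
  have hxL : x ∈ L := mem_sup_right (mem_zpowers x)
  have hnL : ∀ v ∈ L, z * v * z⁻¹ ∈ L := by
    have : L ≤ L.comap (MulAut.conj z).toMonoidHom := by
      conv_lhs => rw [hL]
      refine sup_le ?_ ?_
      · intro m hm
        exact mem_sup_left (hMn.conj_mem m hm z)
      · rw [zpowers_le]
        show z * x * z⁻¹ ∈ L
        have e : z * x * z⁻¹ = ⁅z, x⁆ * x := by simp only [commutatorElement_def]; group
        rw [e]
        exact L.mul_mem (mem_sup_left hcomm) hxL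
    intro v hv
    exact this hv
  have h5 := involution_inverts hq hq2 hno hLp hz hnL x hxL
  have h6 : x * x ∈ pCore q G := by
    have e : ⁅z, x⁆ = (x * x)⁻¹ := by
      calc ⁅z, x⁆ = z * x * z⁻¹ * x⁻¹ := by simp only [commutatorElement_def]
        _ = (x * x)⁻¹ := by rw [h5]; group
    rw [e] at hcomm
    exact (inv_mem_iff).mp hcomm
  -- `x` is a power of `x²`
  obtain ⟨k, hk⟩ := hx.exists_orderOf_eq_pow ⟨x, mem_zpowers x⟩
  rw [← Subgroup.orderOf_coe] at hk
  have hcop : (2 : ℕ).Coprime (orderOf x) := by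
    have : orderOf x = q ^ k := hk
    rw [this]
    exact Nat.Coprime.pow_right _ ((Nat.coprime_primes Nat.prime_two hq).mpr (Ne.symm hq2))
  obtain ⟨m, hm⟩ := exists_pow_eq_self_of_coprime hcop
  rw [← hm, pow_two]
  exact pow_mem h6 m

/-- **First case** -/
theorem case_one (h : ∀ g : G, orderOf g ≤ 6) (h3 : 3 ∣ Nat.card G) (h4 : ∃ g : G, orderOf g = 4)
    (hV1 : pCore 5 G ≠ ⊥) : ∃ (N : Subgroup G) (_ : N.Normal), Cfsg.IsElementaryAbelian 5 N ∧
        (Nonempty (G ⧸ N ≃* QuaternionGroup 3) ∨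
          Nonempty (G ⧸ N ≃* Matrix.SpecialLinearGroup (Fin 2) (ZMod 3))) := by
  have p5 : Nat.Prime 5 := by norm_num
  have p3 : Nat.Prime 3 := by norm_num
  have f5 : Fact (Nat.Prime 5) := ⟨p5⟩
  have f3 : Fact (Nat.Prime 3) := ⟨p3⟩
  have hno : ∀ g : G, orderOf g ≠ 2 * 5 := ne_of_gt h (by norm_num)
  have hno3 : ∀ g : G, orderOf g ≠ 5 * 3 := ne_of_gt h (by norm_num)
  have hno3' : ∀ g : G, orderOf g ≠ 3 * 5 := ne_of_gt h (by norm_num)
  have h2 : 2 ∣ Nat.card G := by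
    obtain ⟨g, hg⟩ := h4
    exact (by rw [hg]; norm_num : 2 ∣ orderOf g).trans (orderOf_dvd_natCard g)
  set V := pCore 5 G with hV
  have hVn : V.Normal := Cfsg.Agent.Lib.Cores.pCore_normal 5
  have hVp : IsPGroup 5 V := Cfsg.Agent.Lib.Cores.pCore_isPGroup 5
  have hVc := core_comm (G := G) p5 (by norm_num) h2 hno
  obtain ⟨⟨v, hv⟩, hv1'⟩ := Subgroup.ne_bot_iff_exists_ne_one.mp hV1
  have hv1 : v ≠ 1 := fun h0 => hv1' (Subtype.ext h0)
  have hVexp : ∀ x ∈ V, x ^ 5 = 1 := fun x hx => pow_eq_one h (Or.inr (Or.inr ⟨rfl, rfl⟩)) hVp hx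
  have hv5 : orderOf v = 5 := orderOf_eq_prime (hVexp v hv) hv1
  -- the centralizer
  have hCp : IsPGroup 5 (centralizer (V : Set G)) := by
    rintro ⟨c, hc⟩
    refine ⟨1, Subtype.ext ?_⟩
    show c ^ (5 ^ 1) = 1
    have hcv : Commute c v := (mem_centralizer_iff.mp hc v hv).symm
    have h6 := h c
    have h0 := orderOf_pos c
    have hn2 : ¬ 2 ∣ orderOf c := fun hd =>
      not_comm_five h hcv.symm (by rw [hv5]) Nat.prime_two (by norm_num) hd
    have hn3 : ¬ 3 ∣ orderOf c := fun hd =>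
      not_comm_five h hcv.symm (by rw [hv5]) p3 (by norm_num) hd
    rw [pow_one, ← orderOf_dvd_iff_pow_eq_one]
    generalize orderOf c = n at *
    interval_cases n <;> simp_all
  have hcent : centralizer (V : Set G) ≤ V :=
    Cfsg.Agent.Lib.Cores.le_pCore inferInstance hCp
  -- the Sylow 5-subgroup
  obtain ⟨Q⟩ : Nonempty (Sylow 5 G) := inferInstance
  have hQV : (Q : Subgroup G) = V := by
    apply le_antisymm
    · intro x hx
      have hle : zpowers x ≤ (Q : Subgroup G) := by rwa [zpowers_le]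
      exact mem_core p5 (by norm_num) h2 hno hcent (Q.2.to_le hle)
    · exact Cfsg.Agent.Lib.Cores.pCore_le_sylow Q
  have hidx : ¬ 5 ∣ Nat.card (G ⧸ V) := by
    have h1 := Q.not_dvd_index
    rw [hQV] at h1
    rwa [Subgroup.index_eq_card] at h1
  have hcard := V.card_mul_index
  rw [Subgroup.index_eq_card] at hcard
  obtain ⟨k5, hk5⟩ := (IsPGroup.iff_card).mp hVp
  have h3H : 3 ∣ Nat.card (G ⧸ V) := by
    rw [← hcard, hk5] at h3
    rcases (Nat.Prime.dvd_mul p3).mp h3 with h1 | h1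
    · have h2 := p3.dvd_of_dvd_pow h1
      norm_num at h2
    · exact h1
  -- involutions of the quotient
  have hu : ∀ x y : G ⧸ V, orderOf x = 2 → orderOf y = 2 → x = y := by
    have key : ∀ x : G ⧸ V, orderOf x = 2 → ∃ a : G, QuotientGroup.mk' V a = x ∧
        ∀ w ∈ V, a * w * a⁻¹ = w⁻¹ := by
      intro x hx
      obtain ⟨a, ha, hap⟩ := exists_lift_pElement V Nat.prime_two x 1
        (by rw [pow_one, ← hx, pow_orderOf_eq_one])
      refine ⟨a, ha, ?_⟩
      have ha1 : a ≠ 1 := by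
        rintro rfl
        rw [map_one] at ha
        rw [← ha, orderOf_one] at hx
        norm_num at hx
      have haV : a ^ 2 ∈ V := by
        rw [← QuotientGroup.eq_one_iff]
        have h1 : (QuotientGroup.mk' V a) ^ 2 = 1 := by rw [ha, ← hx, pow_orderOf_eq_one]
        rw [← map_pow] at h1
        exact h1
      have ha2 : a ^ 2 = 1 := by
        have h1 := hVexp _ haV
        have h2 : a ^ 4 = 1 := pow_eq_one h (Or.inl ⟨rfl, rfl⟩) hap (mem_zpowers a)
        calc a ^ 2 = (a ^ 2) ^ 5 * ((a ^ 4) ^ 2)⁻¹ := by group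
          _ = 1 := by rw [h1, h2]; group
      exact involution_inverts p5 (by norm_num) hno hVp (orderOf_eq_prime ha2 ha1)
        (fun w hw => hVn.conj_mem w hw a)
    intro x y hx hy
    obtain ⟨a, rfl, ha⟩ := key x hx
    obtain ⟨b, rfl, hb⟩ := key y hy
    have h1 : a⁻¹ * b ∈ V := by
      apply hcent
      rw [mem_centralizer_iff]
      intro w hw
      have h2 : (a⁻¹ * b) * w * (a⁻¹ * b)⁻¹ = w := by
        have h3 : a⁻¹ * w⁻¹ * a = w := by
          have h4 := ha w hw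
          rw [← h4]; group
        calc (a⁻¹ * b) * w * (a⁻¹ * b)⁻¹ = a⁻¹ * (b * w * b⁻¹) * a := by group
          _ = w := by rw [hb w hw, h3]
      exact (mul_inv_eq_iff_eq_mul.mp h2).symm
    exact (QuotientGroup.eq).mpr h1
  refine ⟨V, hVn, ⟨⟨⟨fun a b => Subtype.ext (hVc a a.2 b b.2)⟩⟩, hVexp⟩, ?_⟩
  apply classify (quotient h V) hu _ h3H _ hidx
  · obtain ⟨g, hg⟩ := h4
    refine ⟨QuotientGroup.mk' V g, ?_⟩
    have f2 : Fact (Nat.Prime 2) := ⟨Nat.prime_two⟩
    have h1 : orderOf (QuotientGroup.mk' V g) = 2 ^ (1 + 1) := by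
      apply orderOf_eq_prime_pow
      · rw [← map_pow]
        intro h0
        have h1 : g ^ (2 ^ 1) ∈ V := (QuotientGroup.eq_one_iff _).mp h0
        have h2 := hVexp _ h1
        have h3 : orderOf g ∣ 10 := by
          apply orderOf_dvd_of_pow_eq_one
          rw [← pow_mul] at h2
          exact h2
        rw [hg] at h3
        norm_num at h3
      · rw [← map_pow, show 2 ^ (1 + 1) = 4 by norm_num, ← hg, pow_orderOf_eq_one, map_one]
    rw [h1]
    norm_num
  · intro P hP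
    obtain ⟨R⟩ : Nonempty (Sylow 3 G) := inferInstance
    have hR : Nat.card (R : Subgroup G) ∣ 3 := by
      refine card_dvd_of_fpf p3 ⟨⟨fun a b => Subtype.ext (hVc a a.2 b b.2)⟩⟩ hV1 ?_
        (inf_centralizer_eq_bot p3 p5 (by norm_num) hno3' R.2 hVp)
        (fun x hx => pow_eq_one h (Or.inr (Or.inl ⟨rfl, rfl⟩)) R.2 hx)
      rw [Subgroup.normalizer_eq_top_iff.mpr hVn]
      exact le_top
    obtain ⟨n, hn⟩ := (IsPGroup.iff_card).mp hP
    rw [hn]
    refine (R.pow_dvd_card_of_pow_dvd_card ?_).trans hR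
    rw [← hn, ← hcard]
    exact (Subgroup.card_subgroup_dvd_card P).trans (Dvd.intro_left _ rfl)

end

end Cfsg.Agent.H497.Six
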