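import Mathlib
import Cfsg.Agent.H497.SixBasic
import Cfsg.Agent.OddOrderLocal.FpfSolvable
import Cfsg.Agent.OddOrderLocal.CNNil

/-!
Finite groups all of whose elements have order at most six: the case of a normal `5'`-subgroup
`N` with `O_5(G/N) ≠ 1`.
-/

set_option autoImplicit false

namespace Cfsg.Agent.H497.Six

open Subgroup Cfsg Cfsg.Agent.H497

section
variable {G : Type*} [Group G] [Finite G]

/-- central elements of `N` of order dividing `p` -/
def om (N : Subgroup G) (p : ℕ) : Subgroup G where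
  carrier := {x | x ∈ N ∧ (∀ n ∈ N, n * x = x * n) ∧ x ^ p = 1}
  one_mem' := ⟨one_mem _, fun n _ => by rw [mul_one, one_mul], one_pow _⟩
  mul_mem' := by
    rintro a b ⟨ha, hac, hap⟩ ⟨hb, hbc, hbp⟩
    refine ⟨mul_mem ha hb, fun n hn => ?_, ?_⟩
    · rw [← mul_assoc, hac n hn, mul_assoc, hbc n hn, mul_assoc]
    · have hab : Commute a b := hbc a ha
      rw [hab.mul_pow, hap, hbp, one_mul]
  inv_mem' := by
    rintro a ⟨ha, hac, hap⟩
    refine ⟨inv_mem ha, fun n hn => ?_, ?_⟩
    · have h1 : Commute n a := hac n hn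
      exact h1.inv_right
    · rw [inv_pow, hap, inv_one]

omit [Finite G] in
theorem mem_om {N : Subgroup G} {p : ℕ} {x : G} :
    x ∈ om N p ↔ x ∈ N ∧ (∀ n ∈ N, n * x = x * n) ∧ x ^ p = 1 := Iff.rfl

omit [Finite G] in
theorem om_normal (N : Subgroup G) [hN : N.Normal] (p : ℕ) : (om N p).Normal := by
  constructor
  rintro x ⟨hx, hxc, hxp⟩ g
  refine ⟨hN.conj_mem x hx g, fun n hn => ?_, ?_⟩
  · have h1 := hxc _ (hN.conj_mem n hn g⁻¹)
    rw [inv_inv] at h1
    calc n * (g * x * g⁻¹) = g * ((g⁻¹ * n * g) * x) * g⁻¹ := by group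
      _ = g * x * g⁻¹ * n := by rw [h1]; group
  · rw [conj_pow, hxp]; group

omit [Finite G] in
theorem om_comm (N : Subgroup G) (p : ℕ) : ∀ a ∈ om N p, ∀ b ∈ om N p, a * b = b * a :=
  fun a ha _ hb => hb.2.1 a ha.1

omit [Finite G] in
theorem om_pGroup (N : Subgroup G) (p : ℕ) : IsPGroup p (om N p) :=
  fun x => ⟨1, by rw [pow_one]; exact Subtype.ext x.2.2.2⟩

omit [Finite G] in
theorem le_centralizer_om (N : Subgroup G) (p : ℕ) : N ≤ centralizer (om N p : Set G) := by
  intro n hn
  rw [mem_centralizer_iff]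
  intro x hx
  exact (hx.2.1 n hn).symm

theorem om_ne_bot {N : Subgroup G} (hN : Group.IsNilpotent N) {p : ℕ} (hp : p.Prime)
    (hd : p ∣ Nat.card N) : om N p ≠ ⊥ := by
  obtain ⟨z, hz, hzo, hzc⟩ :=
    Cfsg.Agent.OddOrderLocal.CNNil.exists_central_orderOf_subgroup hN hp hd
  intro h0
  have h1 : z ∈ om N p := ⟨hz, fun n hn => hzc n hn, by rw [← hzo, pow_orderOf_eq_one]⟩
  rw [h0, mem_bot] at h1
  rw [h1, orderOf_one] at hzo
  exact hp.one_lt.ne hzo

/-- a normal `5'`-subgroup is nilpotent -/
theorem nilpotent (h : ∀ g : G, orderOf g ≤ 6) (h5 : 5 ∣ Nat.card G) (N : Subgroup G)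
    [hNn : N.Normal] (hN5 : (Nat.card N).Coprime 5) : Group.IsNilpotent N := by
  have f5 : Fact (Nat.Prime 5) := ⟨by norm_num⟩
  obtain ⟨f, hf⟩ := exists_prime_orderOf_dvd_card' (G := G) 5 h5
  apply Cfsg.Agent.OddOrderLocal.FpfSolvable.isNilpotent_of_fpf_elem N _ f _ (p := 5)
    (by norm_num) (by rw [← hf, pow_orderOf_eq_one])
  · -- fixed-point-free
    intro x hx hc
    by_contra hx1
    have h1 : orderOf x ≠ 1 := by rwa [Ne, orderOf_eq_one_iff]
    obtain ⟨r, hr, hrd⟩ := Nat.exists_prime_and_dvd h1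
    have hr5 : r ≠ 5 := by
      rintro rfl
      have h2 : orderOf x ∣ Nat.card N := by
        have := orderOf_dvd_natCard (⟨x, hx⟩ : N)
        rwa [← Subgroup.orderOf_coe] at this
      have h3 := Nat.Coprime.coprime_dvd_left (hrd.trans h2) hN5
      norm_num at h3
    exact not_comm_five h (a := f) (b := x) hc (by rw [hf]) hr hr5 hrd
  · -- solvable
    apply isSolvable_of_two_primes (p := 2) (q := 3) (by norm_num) (by norm_num) (by norm_num)
    intro r hr hrd
    rcases prime_dvd h hr (hrd.trans (Subgroup.card_subgroup_dvd_card N)) with h1 | h1 | rfl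
    · exact Or.inl h1
    · exact Or.inr h1
    · have h3 := Nat.Coprime.coprime_dvd_left hrd hN5
      norm_num at h3
  · rw [Subgroup.normalizer_eq_top_iff.mpr hNn]
    exact mem_top f

/-- the Sylow 5-subgroups have order five if there is a nontrivial normal `5'`-subgroup -/
theorem card_sylow_five (h : ∀ g : G, orderOf g ≤ 6) (h5 : 5 ∣ Nat.card G) (N : Subgroup G)
    [hNn : N.Normal] (hN5 : (Nat.card N).Coprime 5) (hN : N ≠ ⊥) (P : Subgroup G)
    (hP : IsPGroup 5 P) : Nat.card P ∣ 5 := by
  have hnil := nilpotent h h5 N hN5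
  have hcard : Nat.card N ≠ 1 := by rwa [Ne, Subgroup.card_eq_one]
  obtain ⟨r, hr, hrd⟩ := Nat.exists_prime_and_dvd hcard
  have hr5 : r ≠ 5 := by
    rintro rfl
    have h3 := Nat.Coprime.coprime_dvd_left hrd hN5
    norm_num at h3
  have f5 : Fact (Nat.Prime 5) := ⟨by norm_num⟩
  have fr : Fact r.Prime := ⟨hr⟩
  refine card_dvd_of_fpf (A := P) (V := om N r) (by norm_num)
    ⟨⟨fun a b => Subtype.ext (om_comm N r a a.2 b b.2)⟩⟩ (om_ne_bot hnil hr hrd) ?_ ?_ ?_
  · have := om_normal N r
    rw [Subgroup.normalizer_eq_top_iff.mpr this]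
    exact le_top
  · intro a ha ha1
    rw [eq_bot_iff]
    rintro v ⟨hv, hvc⟩
    rw [mem_bot]
    by_contra hv1
    have hvc' : v ∈ centralizer ({a} : Set G) := hvc
    rw [mem_centralizer_singleton_iff] at hvc'
    have h1 : 5 ∣ orderOf a := by
      have := hP.dvd_orderOf (show (⟨a, ha⟩ : P) ≠ 1 from fun h0 => ha1 (congrArg Subtype.val h0))
      rwa [← Subgroup.orderOf_coe] at this
    have h2 : r ∣ orderOf v := by
      rw [orderOf_eq_prime hv.2.2 hv1]
    exact not_comm_five h (a := a) (b := v) hvc'.symm h1 hr hr5 h2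
  · intro a ha
    exact pow_eq_one h (Or.inr (Or.inr ⟨rfl, rfl⟩)) hP ha

theorem zmod_five : ∀ z : ZMod 5, z * z * z - 1 = 0 → z - 1 = 0 := by decide

/-- **Second case**: impossible -/
theorem case_two (h : ∀ g : G, orderOf g ≤ 6) (h3 : 3 ∣ Nat.card G) (h4 : ∃ g : G, orderOf g = 4)
    (N : Subgroup G) [hNn : N.Normal] (hN5 : (Nat.card N).Coprime 5)
    (hN : N ≠ ⊥) (hX : pCore 5 (G ⧸ N) ≠ ⊥) : False := by
  have f5 : Fact (Nat.Prime 5) := ⟨by norm_num⟩
  have f3 : Fact (Nat.Prime 3) := ⟨by norm_num⟩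
  have hXle := quotient h N
  set E := pCore 5 (G ⧸ N) with hE
  have hEn : E.Normal := Cfsg.Agent.Lib.Cores.pCore_normal 5
  have hEp : IsPGroup 5 E := Cfsg.Agent.Lib.Cores.pCore_isPGroup 5
  obtain ⟨⟨e, he⟩, he1⟩ := Subgroup.ne_bot_iff_exists_ne_one.mp hX
  have he1' : e ≠ 1 := fun h0 => he1 (Subtype.ext h0)
  have he5 : orderOf e = 5 := orderOf_eq_prime (pow_eq_one hXle (Or.inr (Or.inr ⟨rfl, rfl⟩)) hEp he) he1'
  -- a lift of `e`
  obtain ⟨f, hfe, hfp⟩ := exists_lift_pElement N (show (5 : ℕ).Prime by norm_num) e 1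
    (by rw [pow_one, ← he5, pow_orderOf_eq_one])
  have hf1 : f ≠ 1 := by
    rintro rfl
    rw [map_one] at hfe
    exact he1' hfe.symm
  have hf5 : orderOf f = 5 := orderOf_eq_prime
    (pow_eq_one h (Or.inr (Or.inr ⟨rfl, rfl⟩)) hfp (mem_zpowers f)) hf1
  have h5 : 5 ∣ Nat.card G := by rw [← hf5]; exact orderOf_dvd_natCard f
  -- the order of `E`
  have hEcard : Nat.card E ∣ 5 := by
    -- a Sylow 5-subgroup of the preimage
    obtain ⟨P⟩ : Nonempty (Sylow 5 (E.comap (QuotientGroup.mk' N))) := inferInstance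
    have hP5 := card_sylow_five h h5 N hN5 hN
      ((P : Subgroup (E.comap (QuotientGroup.mk' N))).map (E.comap (QuotientGroup.mk' N)).subtype)
      (P.2.map _)
    have h1 : Nat.card ((P : Subgroup (E.comap (QuotientGroup.mk' N))).map (Subgroup.subtype _)) =
        Nat.card P := Subgroup.card_map_of_injective (Subgroup.subtype_injective _)
    rw [h1] at hP5
    -- `|E|` divides `|P|`
    have h2 : Nat.card E ∣ Nat.card (E.comap (QuotientGroup.mk' N)) :=
      Subgroup.card_dvd_of_surjective ((QuotientGroup.mk' N).subgroupComap E)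
        (MonoidHom.subgroupComap_surjective_of_surjective _ _ (QuotientGroup.mk'_surjective N))
    obtain ⟨k, hk⟩ := (IsPGroup.iff_card).mp hEp
    have h3' : Nat.card E ∣ Nat.card P := by
      rw [hk] at h2 ⊢
      exact P.pow_dvd_card_of_pow_dvd_card h2
    exact h3'.trans hP5
  have hEz : E = zpowers e := by
    symm
    apply Subgroup.eq_of_le_of_card_ge
    · rwa [zpowers_le]
    · rw [Nat.card_zpowers, he5]
      exact Nat.le_of_dvd (by norm_num) hEcard
  -- `3` divides the order of `N`
  have h3N : 3 ∣ Nat.card N := by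
    by_contra h3N
    have h3X : 3 ∣ Nat.card (G ⧸ N) := by
      have h1 := N.card_mul_index
      rw [← h1] at h3
      rcases (Nat.Prime.dvd_mul (by norm_num)).mp h3 with h2 | h2
      · exact absurd h2 h3N
      · exact h2
    obtain ⟨x, hx⟩ := exists_prime_orderOf_dvd_card' (G := G ⧸ N) 3 h3X
    have h1 : x * e * x⁻¹ ∈ zpowers e := by rw [← hEz]; exact hEn.conj_mem e he x
    obtain ⟨k, hk⟩ := mem_zpowers_iff.mp h1
    have hk3 : e ^ (k * k * k) = e := by
      have hx3 : x * x * x = 1 := by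
        have := pow_orderOf_eq_one x
        rw [hx, pow_succ, pow_two] at this
        exact this
      have h2 : ∀ m : ℤ, x * e ^ m * x⁻¹ = e ^ (k * m) := by
        intro m
        rw [← conj_zpow, ← hk, zpow_mul]
      have h3' : (x * x * x) * e ^ (1 : ℤ) * (x * x * x)⁻¹ = e ^ (k * (k * (k * 1))) := by
        rw [← h2, ← h2, ← h2]; group
      rw [hx3] at h3'
      have h4 : k * (k * (k * 1)) = k * k * k := by ring
      rw [h4] at h3'
      rw [← h3']; group
    have hk1 : (5 : ℤ) ∣ k * k * k - 1 := by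
      have h2 : ((orderOf e : ℕ) : ℤ) ∣ k * k * k - 1 := by
        rw [orderOf_dvd_iff_zpow_eq_one, zpow_sub, hk3, zpow_one, mul_inv_cancel]
      rw [he5] at h2
      exact_mod_cast h2
    have hk2 : (5 : ℤ) ∣ k - 1 := by
      have h2 : ((k * k * k - 1 : ℤ) : ZMod 5) = 0 := by
        rwa [ZMod.intCast_zmod_eq_zero_iff_dvd _ 5] <;> exact_mod_cast hk1
      have h4 : ((k - 1 : ℤ) : ZMod 5) = 0 := by
        push_cast
        apply zmod_five
        push_cast at h2
        exact h2
      exact_mod_cast (ZMod.intCast_zmod_eq_zero_iff_dvd (k - 1) 5).mp h4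
    have hk4 : e ^ k = e := by
      have h2 : e ^ (k - 1) = 1 := by
        rw [← orderOf_dvd_iff_zpow_eq_one, he5]; exact_mod_cast hk2
      rw [zpow_sub, zpow_one, mul_inv_eq_one] at h2
      exact h2
    rw [hk4] at hk
    have hc : Commute e x := (mul_inv_eq_iff_eq_mul.mp hk.symm).symm
    exact not_comm_five hXle hc (by rw [he5]) (by norm_num : (3 : ℕ).Prime) (by norm_num)
      (by rw [hx])
  -- the module
  have hnil := nilpotent h h5 N hN5
  set V := om N 3 with hV
  have hVn : V.Normal := om_normal N 3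
  have hV1 : V ≠ ⊥ := om_ne_bot hnil (by norm_num) h3N
  obtain ⟨s, hs⟩ := h4
  have hNV : N ≤ centralizer (V : Set G) := le_centralizer_om N 3
  -- `C_V(s) = 1`
  have hCs : ∀ v ∈ V, s * v * s⁻¹ = v → v = 1 := by
    intro v hv hc
    by_contra hv1
    have hv3 : orderOf v = 3 := orderOf_eq_prime hv.2.2 hv1
    have hc' : Commute s v := mul_inv_eq_iff_eq_mul.mp hc
    have h1 := hc'.orderOf_mul_eq_mul_orderOf_of_coprime (by rw [hs, hv3]; norm_num)
    have h2 := h (s * v)
    rw [h1, hs, hv3] at h2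
    omega
  set y := QuotientGroup.mk' N s with hy
  have hy4 : y ^ 4 = 1 := by
    rw [hy, ← map_pow, ← hs, pow_orderOf_eq_one, map_one]
  have hn : 0 < orderOf y := orderOf_pos y
  have hfin : Finite E := inferInstance
  have htriv : ∀ e' ∈ E, ∀ v : V, act N V hNV e' v = v := by
    apply lemmaF (fun a b => Subtype.ext (om_comm N 3 a a.2 b b.2)) (act N V hNV) E y (orderOf y) hn
    · intro e' he'
      exact hEn.conj_mem e' he' y
    · intro j hj hjn e' he' hc
      by_contra he1
      have h1 : y ^ j ≠ 1 := fun h0 => absurd (Nat.le_of_dvd hj (orderOf_dvd_of_pow_eq_one h0))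
        (by omega)
      have h2 : 2 ∣ orderOf (y ^ j) := by
        have h3' : (y ^ j) ^ (2 ^ 2) = 1 := by
          rw [← pow_mul, mul_comm, pow_mul, show 2 ^ 2 = 4 by norm_num, hy4, one_pow]
        obtain ⟨i, -, hi⟩ := (Nat.dvd_prime_pow Nat.prime_two).mp (orderOf_dvd_of_pow_eq_one h3')
        rw [hi]
        apply dvd_pow_self
        rintro rfl
        rw [pow_zero, orderOf_eq_one_iff] at hi
        exact h1 hi
      have h3' : orderOf e' = 5 :=
        orderOf_eq_prime (pow_eq_one hXle (Or.inr (Or.inr ⟨rfl, rfl⟩)) hEp he') he1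
      have hc' : Commute e' (y ^ j) := hc.symm
      exact not_comm_five hXle hc' (by rw [h3']) Nat.prime_two (by norm_num) h2
    · intro v
      apply Subtype.ext
      apply hCs _ (SetLike.coe_mem _)
      -- the norm is fixed by `s`
      set n := orderOf y with hnn
      have hyn : y ^ n = 1 := pow_orderOf_eq_one y
      have hcomm : ∀ a b : V, a * b = b * a := fun a b => Subtype.ext (om_comm N 3 a a.2 b b.2)
      let F : ℕ → V := fun j => act N V hNV (y ^ j) v
      have h1 : ((List.range n).map (fun j => act N V hNV (y ^ j) v)).prod =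
          ((List.range n).map F).prod := rfl
      have h2 : act N V hNV y (((List.range n).map F).prod) = ((List.range n).map F).prod := by
        rw [map_list_prod, List.map_map]
        have e1 : (List.range n).map (⇑(act N V hNV y) ∘ F) = (List.range n).map (fun j => F (j + 1)) := by
          apply List.map_congr_left
          intro j _
          show act N V hNV y (act N V hNV (y ^ j) v) = act N V hNV (y ^ (j + 1)) v
          rw [pow_succ', map_mul, MulAut.mul_apply]
        rw [e1]
        have e2 : F 0 * ((List.range n).map (fun j => F (j + 1))).prod =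
            ((List.range n).map F).prod * F n := by
          have h3' := List.range_succ_eq_map (n := n)
          have h4' := List.range_succ (n := n)
          have h5' : ((List.range (n + 1)).map F).prod = F 0 * ((List.range n).map (fun j => F (j + 1))).prod := by
            rw [h3', List.map_cons, List.prod_cons, List.map_map]
            rfl
          rw [← h5', h4', List.map_append, List.prod_append]
          simp
        have e3 : F n = F 0 := by
          show act N V hNV (y ^ n) v = act N V hNV (y ^ 0) v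
          rw [hyn, pow_zero]
        rw [e3, hcomm _ (F 0)] at e2
        exact mul_left_cancel e2
      have h3' := congrArg Subtype.val h2
      rw [h1]
      exact h3'
    · obtain ⟨b, hb⟩ := (IsPGroup.iff_card).mp (om_pGroup N 3)
      obtain ⟨c, hc⟩ := (IsPGroup.iff_card).mp hEp
      rw [hb, hc]
      exact Nat.Coprime.pow _ _ (by norm_num)
  obtain ⟨v, hv1⟩ := Subgroup.ne_bot_iff_exists_ne_one.mp hV1
  have hv1' : (v : G) ≠ 1 := fun h0 => hv1 (Subtype.ext h0)
  have h1 := congrArg Subtype.val (htriv e he v)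
  rw [← hfe, act_mk] at h1
  have hc : Commute f (v : G) := mul_inv_eq_iff_eq_mul.mp h1
  have hv3 : orderOf (v : G) = 3 := orderOf_eq_prime v.2.2.2 hv1'
  exact not_comm_five h hc (by rw [hf5]) (by norm_num : (3 : ℕ).Prime) (by norm_num) (by rw [hv3])

end

end Cfsg.Agent.H497.Six
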