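import Mathlib
import Cfsg.Agent.H497.SixTwo
import Cfsg.Agent.H497.AlmostSimple
import Cfsg.Agent.H497.AltId
import Cfsg.Agent.H497.FrobData
import Cfsg.Agent.H497.UFourTwo
import Cfsg.Agent.S0243
import Cfsg.Agent.S0280
import Cfsg.Agent.S3719

/-!
Finite groups all of whose elements have order at most six: the non-solvable case.
-/

set_option autoImplicit false

namespace Cfsg.Agent.H497.Six

open Subgroup Cfsg Cfsg.Agent.H497 Equiv Equiv.Perm

section
variable {K : Type*} [Group K] [Finite K]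

theorem dvd_of_simple [hs : IsSimpleGroup K] (hna : ¬ IsMulCommutative K)
    (hle : ∀ g : K, orderOf g ≤ 6) {r : ℕ} (hr : r = 2 ∨ r = 3 ∨ r = 5) : r ∣ Nat.card K := by
  by_contra hd
  apply hna
  have hsol : Group.IsSolvable K := by
    rcases hr with rfl | rfl | rfl
    · apply isSolvable_of_two_primes (p := 3) (q := 5) (by norm_num) (by norm_num) (by norm_num)
      intro s hs' hsd
      rcases prime_dvd hle hs' hsd with rfl | h1 | h1
      · exact absurd hsd hd
      · exact Or.inl h1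
      · exact Or.inr h1
    · apply isSolvable_of_two_primes (p := 2) (q := 5) (by norm_num) (by norm_num) (by norm_num)
      intro s hs' hsd
      rcases prime_dvd hle hs' hsd with h1 | rfl | h1
      · exact Or.inl h1
      · exact absurd hsd hd
      · exact Or.inr h1
    · apply isSolvable_of_two_primes (p := 2) (q := 3) (by norm_num) (by norm_num) (by norm_num)
      intro s hs' hsd
      rcases prime_dvd hle hs' hsd with h1 | h1 | rfl
      · exact Or.inl h1
      · exact Or.inr h1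
      · exact absurd hsd hd
  exact ⟨⟨IsSimpleGroup.comm_iff_isSolvable.mpr hsol⟩⟩

/-- the simple groups -/
theorem simple_id [hs : IsSimpleGroup K] (hna : ¬ IsMulCommutative K)
    (hle : ∀ g : K, orderOf g ≤ 6) :
    Nonempty (K ≃* alternatingGroup (Fin 5)) ∨ Nonempty (K ≃* alternatingGroup (Fin 6)) := by
  have hpf : (Nat.card K).primeFactors = {2, 3, 5} := by
    ext r
    rw [Nat.mem_primeFactors]
    constructor
    · rintro ⟨hr, hrd, -⟩
      rcases prime_dvd hle hr hrd with h1 | h1 | h1 <;> simp [h1]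
    · intro hr
      have h1 : r = 2 ∨ r = 3 ∨ r = 5 := by simpa using hr
      refine ⟨?_, dvd_of_simple hna hle h1, Nat.card_pos.ne'⟩
      rcases h1 with rfl | rfl | rfl <;> norm_num
  have hbad : ∀ r : ℕ, r.Prime → 5 < r → ¬ r ∣ Nat.card K := by
    intro r hr hr5 hrd
    rcases prime_dvd hle hr hrd with h1 | h1 | h1 <;> omega
  have h3 : (Nat.card K).primeFactors.card = 3 := by rw [hpf]; rfl
  rcases Cfsg.Agent.S3719.result hna h3 with h1 | h1 | ⟨F, _, _, hF, ⟨e⟩⟩ | ⟨F, _, _, hF, ⟨e⟩⟩ |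
    ⟨F, _, _, hF, ⟨e⟩⟩ | ⟨F, _, _, hF, ⟨e⟩⟩
  · exact Or.inl h1
  · exact Or.inr h1
  · exfalso
    have hc : Nat.card K = Nat.card (Matrix.ProjectiveSpecialLinearGroup (Fin 2) F) :=
      Nat.card_congr e.toEquiv
    rcases hF with hF | hF | hF
    · have h4 := Cfsg.Agent.S0243.result hF 2 le_rfl
      rw [← hc] at h4
      simp [Fin.prod_univ_two] at h4
      exact hbad 7 (by norm_num) (by norm_num) (by omega)
    · have h4 := Cfsg.Agent.S0243.result hF 2 le_rfl
      rw [← hc] at h4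
      simp [Fin.prod_univ_two] at h4
      exact hbad 7 (by norm_num) (by norm_num) (by omega)
    · have h4 := Cfsg.Agent.S0243.result hF 2 le_rfl
      rw [← hc] at h4
      simp [Fin.prod_univ_two] at h4
      exact hbad 17 (by norm_num) (by norm_num) (by omega)
  · exfalso
    have hc : Nat.card K = Nat.card (Matrix.ProjectiveSpecialLinearGroup (Fin 3) F) :=
      Nat.card_congr e.toEquiv
    have h4 := Cfsg.Agent.S0243.result hF 3 (by norm_num)
    rw [← hc] at h4
    simp [Fin.prod_univ_three] at h4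
    exact hbad 13 (by norm_num) (by norm_num) (by omega)
  · exfalso
    have hc : Nat.card K = Nat.card (PSU 3 F 3) := Nat.card_congr e.toEquiv
    have h4 := Cfsg.Agent.S0280.result (q := 3) (by rw [hF]; norm_num) 3 (by norm_num)
    rw [← hc] at h4
    simp [Finset.prod_range_succ] at h4
    exact hbad 7 (by norm_num) (by norm_num) (by omega)
  · exfalso
    obtain ⟨x, hx⟩ := Cfsg.Agent.H497.UFourTwo.exists_order_nine hF
    have h4 := hle (e.symm x)
    rw [MulEquiv.orderOf_eq, hx] at h4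
    omega

end

section
variable {G : Type*} [Group G] [Finite G]

theorem noFrob' (h : ∀ g : G, orderOf g ≤ 6) (h5 : 5 ∣ Nat.card G) (N : Subgroup G) [N.Normal]
    (hN5 : (Nat.card N).Coprime 5) {p n : ℕ} (hpn : (p = 2 ∧ n = 4) ∨ (p = 3 ∧ n = 3))
    (hd : p ∣ Nat.card N)
    (hrad : ∀ M : Subgroup (G ⧸ N), M.Normal → M ≠ ⊥ → 5 ∣ Nat.card M)
    {K : Type*} [Group K] (ψ : K →* G ⧸ N) (hψ : Function.Injective ψ) (hF : FrobData K p n) :
    False := by
  have hp : p.Prime := by
    rcases hpn with ⟨rfl, -⟩ | ⟨rfl, -⟩ <;> norm_num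
  obtain ⟨q, E, y, hq, hqp, hE, hEq, hyn, hy, hfpf⟩ := hF
  have hVn := om_normal N p
  exact noFrob h N (om N p) hpn (om_pGroup N p) (om_comm N p)
    (om_ne_bot (nilpotent h h5 N hN5) hp hd) (le_centralizer_om N p) hrad ψ hψ E hE hq hqp hEq y
    hyn hy hfpf

/-- the dihedral situation over `A₅` -/
theorem dihedral (h : ∀ g : G, orderOf g ≤ 6) (N : Subgroup G) [hNn : N.Normal]
    (hN2 : IsPGroup 2 N) (e : G ⧸ N ≃* alternatingGroup (Fin 5)) : Cfsg.IsElementaryAbelian 2 N := by
  have f2 : Fact (Nat.Prime 2) := ⟨Nat.prime_two⟩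
  have f5 : Fact (Nat.Prime 5) := ⟨Nat.prime_five⟩
  -- elements of `A₅`
  let c : alternatingGroup (Fin 5) := ⟨c5, by rw [Perm.mem_alternatingGroup]; decide⟩
  let τ : alternatingGroup (Fin 5) := ⟨swap 1 4 * swap 2 3, by rw [Perm.mem_alternatingGroup]; decide⟩
  have hc5 : c ^ 5 = 1 := Subtype.ext (by change c5 ^ 5 = 1; decide)
  have hc1 : c ≠ 1 := by
    intro h0
    have h1 : c5 = 1 := congrArg Subtype.val h0
    revert h1; decide
  have hτ2 : τ * τ = 1 := Subtype.ext (by
    change (swap 1 4 * swap 2 3 : Perm (Fin 5)) * (swap 1 4 * swap 2 3) = 1; decide)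
  have hτc : τ * c * τ⁻¹ = c⁻¹ := Subtype.ext (by
    change (swap 1 4 * swap 2 3 : Perm (Fin 5)) * c5 * (swap 1 4 * swap 2 3)⁻¹ = c5⁻¹; decide)
  -- the lift of `c`
  obtain ⟨f, hf, hfp⟩ := exists_lift_pElement N Nat.prime_five (e.symm c) 1
    (by rw [pow_one, ← map_pow, hc5, map_one])
  have hf1 : f ≠ 1 := by
    rintro rfl
    rw [map_one] at hf
    exact hc1 (e.symm.injective (by rw [← hf, map_one]))
  have hf5' : f ^ 5 = 1 := pow_eq_one h (Or.inr (Or.inr ⟨rfl, rfl⟩)) hfp (mem_zpowers f)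
  have hf5 : orderOf f = 5 := orderOf_eq_prime hf5' hf1
  have hfpf : ∀ r ∈ N, f * r = r * f → r = 1 := by
    intro r hr hc
    by_contra hr1
    have h1 : 2 ∣ orderOf r := by
      have := hN2.dvd_orderOf (show (⟨r, hr⟩ : N) ≠ 1 from fun h0 => hr1 (congrArg Subtype.val h0))
      rwa [← Subgroup.orderOf_coe] at this
    exact not_comm_five h (a := f) (b := r) hc (by rw [hf5]) Nat.prime_two (by norm_num) h1
  -- the lift of `τ`
  obtain ⟨g0, hg0⟩ := QuotientGroup.mk'_surjective N (e.symm τ)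
  have h1 : (g0 * f⁻¹ * g0⁻¹) * f⁻¹ ∈ N := by
    rw [← QuotientGroup.eq_one_iff]
    change QuotientGroup.mk' N ((g0 * f⁻¹ * g0⁻¹) * f⁻¹) = 1
    rw [map_mul, map_mul, map_mul, map_inv, map_inv, hf, hg0, ← map_inv, ← map_inv, ← map_mul,
      ← map_mul, ← map_mul]
    have : τ * c⁻¹ * τ⁻¹ * c⁻¹ = 1 := by
      calc τ * c⁻¹ * τ⁻¹ * c⁻¹ = (τ * c * τ⁻¹)⁻¹ * c⁻¹ := by group
        _ = 1 := by rw [hτc]; group
    rw [this, map_one]
  obtain ⟨m, hm, hmr⟩ := DihedralTwo.surj N (g := f) (fun m hm => hNn.conj_mem m hm f) hfpf h1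
  set t := m * g0 with ht
  have htf' : t * f⁻¹ * t⁻¹ = f := by
    have h2 : g0 * f⁻¹ * g0⁻¹ = m⁻¹ * f * m := by
      have h3 := congrArg (fun z => z * f) hmr
      simp only [inv_mul_cancel_right] at h3
      rw [h3]; group
    calc t * f⁻¹ * t⁻¹ = m * (g0 * f⁻¹ * g0⁻¹) * m⁻¹ := by rw [ht]; group
      _ = f := by rw [h2]; group
  have htf : t * f * t⁻¹ = f⁻¹ := by
    have h2 := congrArg (fun z => z⁻¹) htf'
    simp only [mul_inv_rev, inv_inv] at h2
    rw [← h2]; group
  have hmt : QuotientGroup.mk' N t = e.symm τ := by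
    rw [ht, map_mul, hg0]
    have : QuotientGroup.mk' N m = 1 := (QuotientGroup.eq_one_iff m).mpr hm
    rw [this, one_mul]
  have htt : t * t = 1 := by
    apply hfpf
    · rw [← QuotientGroup.eq_one_iff]
      change QuotientGroup.mk' N (t * t) = 1
      rw [map_mul, hmt, ← map_mul, hτ2, map_one]
    · have h2 : (t * t) * f * (t * t)⁻¹ = f := by
        calc (t * t) * f * (t * t)⁻¹ = t * (t * f * t⁻¹) * t⁻¹ := by group
          _ = f := by rw [htf, htf']
      exact (mul_inv_eq_iff_eq_mul.mp h2).symm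
  have hHyp : DihedralTwo.Hyp N f t 5 := by
    apply DihedralTwo.Hyp.of hNn inferInstance hN2 Nat.prime_five (by norm_num) hf5' htt htf hfpf
    intro r hr
    -- `t * r` is a 2-element
    have h2 : (t * r) * (t * r) ∈ N := by
      rw [← QuotientGroup.eq_one_iff]
      change QuotientGroup.mk' N ((t * r) * (t * r)) = 1
      have h3 : QuotientGroup.mk' N r = 1 := (QuotientGroup.eq_one_iff r).mpr hr
      rw [map_mul, map_mul, h3, mul_one, hmt, ← map_mul, hτ2, map_one]
    have h3 : IsPGroup 2 (zpowers (t * r)) := by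
      obtain ⟨k, hk⟩ := hN2 ⟨_, h2⟩
      have hk' : ((t * r) * (t * r)) ^ (2 ^ k) = 1 := congrArg Subtype.val hk
      intro ⟨w, hw⟩
      obtain ⟨i, rfl⟩ := mem_zpowers_iff.mp hw
      refine ⟨k + 1, Subtype.ext ?_⟩
      show ((t * r) ^ i) ^ (2 ^ (k + 1)) = 1
      rw [← zpow_natCast, zpow_comm, zpow_natCast, pow_succ, mul_comm, pow_mul, pow_two, hk',
        one_zpow]
    exact pow_eq_one h (Or.inl ⟨rfl, rfl⟩) h3 (mem_zpowers _)
  refine ⟨⟨⟨fun a b => Subtype.ext (hHyp.comm a a.2 b b.2)⟩⟩, fun x hx => ?_⟩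
  rw [pow_two]
  exact hHyp.sq_eq_one x hx

/-- **Third case** -/
theorem case_three (h : ∀ g : G, orderOf g ≤ 6) (h6 : ∃ g : G, orderOf g = 6)
    (h5 : 5 ∣ Nat.card G) (N : Subgroup G) [hNn : N.Normal]
    (hN5 : (Nat.card N).Coprime 5) (hX : RadTriv (G ⧸ N)) :
    (∃ (N : Subgroup G) (_ : N.Normal), Cfsg.IsElementaryAbelian 2 N ∧
        Nonempty (G ⧸ N ≃* ↥(alternatingGroup (Fin 5)))) ∨
      Nonempty (G ≃* Equiv.Perm (Fin 5)) ∨ Nonempty (G ≃* Equiv.Perm (Fin 6)) := by
  have hXle := quotient h N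
  have f5 : Fact (Nat.Prime 5) := ⟨Nat.prime_five⟩
  have f2 : Fact (Nat.Prime 2) := ⟨Nat.prime_two⟩
  have hXnt : Nontrivial (G ⧸ N) := by
    rw [← not_subsingleton_iff_nontrivial]
    intro hs
    have h1 : N = ⊤ := QuotientGroup.subgroup_eq_top_of_subsingleton N hs
    rw [h1, Subgroup.card_top] at hN5
    have h2 := Nat.Coprime.coprime_dvd_left h5 hN5
    norm_num at h2
  -- components
  have hcomp : ∀ K : Subgroup (G ⧸ N), Cfsg.IsComponent K → ∀ r : ℕ, r = 2 ∨ r = 3 ∨ r = 5 →
      r ∣ Nat.card K := by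
    intro K hK r hr
    have := component_isSimple hX hK
    exact dvd_of_simple (component_not_comm hK) (subgroup hXle K) hr
  have huniq : ∀ K L : Subgroup (G ⧸ N), Cfsg.IsComponent K → Cfsg.IsComponent L → K = L := by
    intro K L hK hL
    by_contra hne
    obtain ⟨a, ha⟩ := exists_prime_orderOf_dvd_card' (G := K) 5 (hcomp K hK 5 (by norm_num))
    obtain ⟨b, hb⟩ := exists_prime_orderOf_dvd_card' (G := L) 2 (hcomp L hL 2 (by norm_num))
    have h1 := Cfsg.Agent.SignalizersComponents.Components.component_le_centralizer_of_ne hK hL hne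
    have h2 : Commute (a : G ⧸ N) (b : G ⧸ N) := (mem_centralizer_iff.mp (h1 a.2) b b.2).symm
    rw [← Subgroup.orderOf_coe] at ha hb
    exact not_comm_five hXle h2 (by rw [ha]) Nat.prime_two (by norm_num) (by rw [hb])
  obtain ⟨S, hSn, hSs, hSc, hSC⟩ := almost_simple hX huniq
  -- normal subgroups
  have hrad : ∀ M : Subgroup (G ⧸ N), M.Normal → M ≠ ⊥ → 5 ∣ Nat.card M := by
    intro M hM hM1
    by_contra hd
    apply hM1
    apply hX M hM
    apply isSolvable_of_two_primes (p := 2) (q := 3) (by norm_num) (by norm_num) (by norm_num)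
    intro r hr hrd
    rcases prime_dvd (subgroup hXle M) hr hrd with h1 | h1 | rfl
    · exact Or.inl h1
    · exact Or.inr h1
    · exact absurd hrd hd
  -- prime divisors of `|N|`
  have hNπ : ∀ r : ℕ, r.Prime → r ∣ Nat.card N → r = 2 ∨ r = 3 := by
    intro r hr hrd
    rcases prime_dvd (subgroup h N) hr hrd with h1 | h1 | rfl
    · exact Or.inl h1
    · exact Or.inr h1
    · have h3 := Nat.Coprime.coprime_dvd_left hrd hN5
      norm_num at h3
  have hbot : ∀ (hN1 : N = ⊥), Nonempty (G ⧸ N ≃* G) := by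
    intro hN1
    exact ⟨(QuotientGroup.quotientMulEquivOfEq hN1).trans QuotientGroup.quotientBot⟩
  rcases simple_id hSc (subgroup hXle S) with he | he
  · -- `A₅`
    obtain ⟨e⟩ := he
    have hinj : Function.Injective (S.subtype.comp e.symm.toMonoidHom) :=
      S.subtype_injective.comp e.symm.injective
    have h3N : ¬ 3 ∣ Nat.card N := fun hd =>
      noFrob' h h5 N hN5 (Or.inr ⟨rfl, rfl⟩) hd hrad (S.subtype.comp e.symm.toMonoidHom) hinj
        frob_A5_3
    rcases Cfsg.Agent.H497.AltId.ident_five e hSC with ⟨⟨e'⟩⟩ | ⟨⟨e'⟩⟩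
    · left
      have hN2 : IsPGroup 2 N := by
        apply IsPGroup.of_card (n := (Nat.card N).factorization 2)
        have h1 := Nat.prod_factorization_pow_eq_self (n := Nat.card N) Nat.card_pos.ne'
        conv_lhs => rw [← h1]
        have hsub : (Nat.card N).factorization.support ⊆ {2} := by
          intro r hr
          rw [Nat.support_factorization, Nat.mem_primeFactors] at hr
          rw [Finset.mem_singleton]
          rcases hNπ r hr.1 hr.2.1 with h2 | rfl
          · exact h2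
          · exact absurd hr.2.1 h3N
        rw [Finsupp.prod_of_support_subset _ hsub _ (by simp), Finset.prod_singleton]
      exact ⟨N, hNn, dihedral h N hN2 e', ⟨e'⟩⟩
    · right; left
      by_cases hN1 : N = ⊥
      · obtain ⟨e0⟩ := hbot hN1
        exact ⟨e0.symm.trans e'⟩
      · exfalso
        have hcard : Nat.card N ≠ 1 := by rwa [Ne, Subgroup.card_eq_one]
        obtain ⟨r, hr, hrd⟩ := Nat.exists_prime_and_dvd hcard
        rcases hNπ r hr hrd with rfl | rfl
        · exact noFrob' h h5 N hN5 (Or.inl ⟨rfl, rfl⟩) hrd hrad e'.symm.toMonoidHom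
            e'.symm.injective frob_S5_2
        · exact h3N hrd
  · -- `A₆`
    obtain ⟨e⟩ := he
    have hinj : Function.Injective (S.subtype.comp e.symm.toMonoidHom) :=
      S.subtype_injective.comp e.symm.injective
    by_cases hN1 : N = ⊥
    · obtain ⟨e0⟩ := hbot hN1
      rcases Cfsg.Agent.H497.AltId.ident_six hXle e hSC with ⟨⟨e'⟩⟩ | ⟨⟨e'⟩⟩
      · exfalso
        obtain ⟨g, hg⟩ := h6
        apply Cfsg.Agent.H497.AltId.no_six (e' (e0.symm g))
        rw [MulEquiv.orderOf_eq, MulEquiv.orderOf_eq, hg]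
      · exact Or.inr (Or.inr ⟨e0.symm.trans e'⟩)
    · exfalso
      have hcard : Nat.card N ≠ 1 := by rwa [Ne, Subgroup.card_eq_one]
      obtain ⟨r, hr, hrd⟩ := Nat.exists_prime_and_dvd hcard
      rcases hNπ r hr hrd with rfl | rfl
      · exact noFrob' h h5 N hN5 (Or.inl ⟨rfl, rfl⟩) hrd hrad
          (S.subtype.comp e.symm.toMonoidHom) hinj frob_A6_2
      · exact noFrob' h h5 N hN5 (Or.inr ⟨rfl, rfl⟩) hrd hrad
          (S.subtype.comp e.symm.toMonoidHom) hinj frob_A6_3

/-- trivial radical -/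
theorem radTriv_of (h5 : pCore 5 G = ⊥) (h5' : pPrimeCore 5 G = ⊥) :
    RadTriv G := by
  intro M hM hMs
  by_contra hM1
  have : Nontrivial M := (nontrivial_iff_ne_bot M).mpr hM1
  obtain ⟨D, hDc, hDm, hD⟩ :=
    Cfsg.Agent.Lib.SolvableNormalP.exists_comm_characteristic M
  have hcard : Nat.card D ≠ 1 := by rwa [Ne, Subgroup.card_eq_one]
  obtain ⟨p, hp, hpd⟩ := Nat.exists_prime_and_dvd hcard
  have fp : Fact p.Prime := ⟨hp⟩
  obtain ⟨P⟩ : Nonempty (Sylow p D) := inferInstance
  have hPn : (P : Subgroup D).Normal := by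
    constructor
    intro n hn g
    have : g * n * g⁻¹ = n := by
      have := hDm.is_comm.comm g n
      rw [this, mul_inv_cancel_right]
    rwa [this]
  have hPc : (P : Subgroup D).Characteristic := P.characteristic_of_normal hPn
  have hDn : (D.map M.subtype).Normal := inferInstance
  have hPc' : ((P : Subgroup D).map D.subtype).Characteristic := inferInstance
  set V : Subgroup G := ((P : Subgroup D).map D.subtype).map M.subtype with hV
  have hVn : V.Normal := inferInstance
  have hVp : IsPGroup p V := (P.2.map _).map _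
  have hV1 : V ≠ ⊥ := by
    rw [hV, Ne, Subgroup.map_eq_bot_iff_of_injective _ M.subtype_injective,
      Subgroup.map_eq_bot_iff_of_injective _ D.subtype_injective]
    exact P.ne_bot_of_dvd_card hpd
  by_cases hp5 : p = 5
  · subst hp5
    have h1 := Cfsg.Agent.Lib.Cores.le_pCore hVn hVp
    rw [h5, le_bot_iff] at h1
    exact hV1 h1
  · have h1 : V ≤ pPrimeCore 5 G := by
      apply Cfsg.Agent.Lib.Cores.le_pPrimeCore hVn
      obtain ⟨n, hn⟩ := (IsPGroup.iff_card).mp hVp
      rw [hn]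
      exact Nat.Coprime.pow_left _ ((Nat.coprime_primes hp Nat.prime_five).mpr hp5)
    rw [h5', le_bot_iff] at h1
    exact hV1 h1

end

end Cfsg.Agent.H497.Six
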